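import Cfsg.Agent.Lib.QT.Cyc
import Cfsg.Agent.Lib.Chev.MinGrp
import Cfsg.Agent.Lib.Chev.ClTypes
import Cfsg.Agent.Lib.Chev.Types
import Cfsg.Agent.Lib.Chev.LiftQ
import Cfsg.Agent.Lib.Chev.CertE7
import Cfsg.Agent.Lib.Chev.CertE8
import Cfsg.Agent.Lib.Twisted.AutF4
import Cfsg.Agent.Lib.Twisted.AutE6D4
import Cfsg.Agent.S1069
import Cfsg.Prelude.Def_LieChev

/-! # Non-cyclic Sylow subgroups of odd order in groups of Lie type -/

set_option autoImplicit false

namespace Cfsg.Lib.QT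

open Subgroup Cfsg.Lie Cfsg.Lib.Chev Cfsg.Lib.Chev.RootSys Cfsg.Lib.Twisted

theorem Br.mul {G : Type*} [Group G] {a b c d : G} (h : Br a b) (h' : Br c d) (h1 : Commute a c)
    (h2 : Commute a d) (h3 : Commute b c) (h4 : Commute b d) : Br (a * c) (b * d) := by
  have e1 : a * c * (b * d) * (a * c) = a * b * a * (c * d * c) := by
    rw [h3.symm.mul_mul_mul_comm, (h1.symm.mul_left h2.symm).mul_mul_mul_comm]
  have e2 : b * d * (a * c) * (b * d) = b * a * b * (d * c * d) := by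
    rw [h2.symm.mul_mul_mul_comm, (h4.symm.mul_left h3.symm).mul_mul_mul_comm]
  refine ⟨by rw [e1, e2, h.braid, h'.braid], ?_, fun e => h.not_comm ?_⟩
  · rw [e1, Commute.mul_pow (((h1.mul_right h2).mul_right h1).mul_left ((h3.mul_right h4).mul_right h3) |>.mul_left
      ((h1.mul_right h2).mul_right h1)), h.four, h'.four, one_mul]
  · have : b = a * c * d⁻¹ := by rw [e, mul_inv_cancel_right]
    exact this ▸ ((Commute.refl a).mul_right h1).mul_right h2.inv_right

theorem Bad.comm {G H : Type*} [Group G] [Group H] (h : Bad (commutator H)) (e : G ≃* H) : Bad (commutator G) :=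
  h.of_inj ((e.symm.toMonoidHom.comp (Subgroup.subtype _)).codRestrict _ fun x =>
    commutator_mono le_top le_top ((map_commutator ⊤ ⊤ e.symm.toMonoidHom).le (mem_map_of_mem _ x.2)))
    fun _ _ h => Subtype.ext (e.symm.injective (congrArg Subtype.val h))

section Sys
variable {ι Φ : Type} [Fintype ι] [DecidableEq ι] [Fintype Φ] {R : RootSys ι Φ} {F : Type*} [Field F]
  {G : Type*} [Group G] {C : ChevSys R F G} (hF : C.Faithful) (hM : C.HMul)
include hF hM

theorem br_x (r : Φ) : Br (C.x r 1) (C.x (R.neg r) (-1)) := by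
  have h1 : C.x r 1 * C.x (R.neg r) (-1) * C.x r 1 = C.n r 1 := by simp [PreSys.n]
  refine ⟨?_, ?_, fun e => ?_⟩
  · have := C.n_neg_root r (-1)
    rw [h1, show (1 : Fˣ) = -(-1)⁻¹ by simp, ← this]
    simp [PreSys.n]
  · rw [h1, show 4 = 2 * 2 from rfl, pow_mul, sq (C.n r 1), C.n_mul_self, inv_pow, sq, ← hM]
    simp
  · by_cases h : R.IsPos r
    · exact (R.isPos_neg_iff.1 (hF.isPos_of_x_mem (by simp) (e ▸ C.U_le_B (C.x_mem_U h 1)))) h
    · exact h (hF.isPos_of_x_mem one_ne_zero (e ▸ C.U_le_B (C.x_mem_U (R.isPos_neg_iff.2 h) _)))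

theorem bp_simple {i j : ι} (h : R.A i j = 0) : BP G :=
  have e : i ≠ j := fun e => by rw [e, A_diag] at h; omega
  ⟨_, _, _, _, br_x hF hM (R.simple i), br_x hF hM (R.simple j),
    commute_of_orth e h (x_mem_Lv _ _) (x_mem_Lv _ _), commute_of_orth e h (x_mem_Lv _ _) (x_neg_mem_Lv _ _),
    commute_of_orth e h (x_neg_mem_Lv _ _) (x_mem_Lv _ _),
    commute_of_orth e h (x_neg_mem_Lv _ _) (x_neg_mem_Lv _ _)⟩

theorem bp_ln {r s : Φ} (h : R.pair r s = 0) (h' : ∀ k, R.ln r = R.ln s → R.ln k ≠ 2 * R.ln r) : BP G :=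
  ⟨_, _, _, _, br_x hF hM r, br_x hF hM s, ChevSys.commute_of_orth h (fun k _ => h' k) _ _,
    ChevSys.commute_of_orth (by simp [h]) (fun k _ => by simpa [R.ln_neg] using h' k) _ _,
    ChevSys.commute_of_orth (by simp [h]) (fun k _ => by simpa [R.ln_neg] using h' k) _ _,
    ChevSys.commute_of_orth (by simp [h]) (fun k _ => by simpa [R.ln_neg] using h' k) _ _⟩

end Sys

variable {F : Type*} [Field F]

theorem bp_SL {n : ℕ} (hn : 4 ≤ n) : BP (Matrix.SpecialLinearGroup (Fin n) F) := by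
  obtain ⟨n, rfl⟩ := Nat.exists_eq_add_of_le' hn
  exact bp_simple (realSL F (n + 3)).faithful (realSL F _).hMul (i := ⟨0, by omega⟩) (j := ⟨2, by omega⟩) (by simp [A_A])

theorem bp_Sp {n : ℕ} (hn : 2 ≤ n) : BP (Matrix.symplecticGroup (Fin n) F) := by
  refine bp_ln (realSp F n).faithful (realSp F _).hMul (r := Rt.long ⟨0, by omega⟩) (s := Rt.long ⟨1, by omega⟩)
    ?_ fun k _ => ?_
  · rw [pair_C, Rt.P_long]
    simp only [Rt.long, dl_def]
    rw [if_neg (by omega), if_neg (by omega)]; rfl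
  · have h : ∀ r, (rootC n).ln r = if r.1.1 = r.1.2 then 2 else 1 := fun _ => rfl
    rw [h, h, if_pos (show (Rt.long _).1.1 = (Rt.long _).1.2 from rfl)]
    split_ifs <;> omega

theorem bp_F4 : BP (chevF4.group F) := bp_simple faithful_F4 adjoint_F4.hMul A03_F4

theorem bp_E6 : BP (chevE6.group F) := bp_simple faithful_E6 adjoint_E6.hMul A05_E6

theorem bp_E7 : BP (chevE7.group F) :=
  bp_simple (sysG_faithful checkedE7 F) (sysG_adjoint _ _).hMul (i := (0 : Fin 7)) (j := (1 : Fin 7))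
    (by change AN chevE7 0 1 = 0; decide +kernel)

theorem bp_E8 : BP (chevE8.group F) :=
  bp_simple (sysG_faithful checkedE8 F) (sysG_adjoint _ _).hMul (i := (0 : Fin 8)) (j := (1 : Fin 8))
    (by change AN chevE8 0 1 = 0; decide +kernel)

theorem bp_G2 : BP (chevG2.group F) :=
  bp_ln faithful_G2 adjoint_G2.hMul (r := RG2.simple 0) (s := 11) (by rw [pair_G2]; rfl) fun _ h =>
    absurd h (by rw [simple_G2]; change lnN certG2 7 ≠ lnN certG2 11; decide +kernel)

section Words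
variable {D : ChevalleyDatum} {ct : Cert} (h : Checked D ct) (F)

/-- words with integral coefficients -/
noncomputable def zw (w : List (ℕ × ℤ)) : D.group F := wd h (w.map fun a => (a.1, (a.2 : F)))

/-- words with integral coefficients as polynomial words -/
def cw (w : List (ℕ × ℤ)) : List (ℕ × Poly) := w.map fun a => (a.1, [(a.2, 0, 0)])

variable {F}

theorem zw_append (w w' : List (ℕ × ℤ)) : zw F h (w ++ w') = zw F h w * zw F h w' := by
  rw [zw, List.map_append, wd_append]; rfl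

theorem zw_eq {p : ℕ} (hp : (p : F) = 0) {a b c d : List (ℕ × ℤ)}
    (e : eqWp D p (cw (a ++ b)) (cw (c ++ d)) = true) : zw F h a * zw F h b = zw F h c * zw F h d := by
  have := wd_eq_of_eqWp h hp e 0 0
  have k : ∀ w, evW (0 : F) 0 (cw w) = w.map fun a => (a.1, (a.2 : F)) := fun w => by simp [evW, cw, evP]
  rw [k, k] at this
  rw [← zw_append, ← zw_append]; exact this

theorem zw_step {p : ℕ} (hp : (p : F) = 0) {K : Subgroup (D.group F)} {g a b c d : List (ℕ × ℤ)}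
    (hg : zw F h g ∈ K) (e : (eqWp D p (cw (g ++ a)) (cw (c ++ g)) && eqWp D p (cw (g ++ b)) (cw (d ++ g))) = true)
    (k : zw F h a ∈ K ∧ zw F h b ∈ K ∧ Br (zw F h a) (zw F h b)) :
    zw F h c ∈ K ∧ zw F h d ∈ K ∧ Br (zw F h c) (zw F h d) := by
  rw [Bool.and_eq_true] at e
  rw [← mul_inv_eq_iff_eq_mul.2 (zw_eq h hp e.1), ← mul_inv_eq_iff_eq_mul.2 (zw_eq h hp e.2)]
  exact ⟨mul_mem (mul_mem hg k.1) (inv_mem hg), mul_mem (mul_mem hg k.2.1) (inv_mem hg), k.2.2.conj _⟩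

theorem zw_comm {p : ℕ} (hp : (p : F) = 0) {a b c d : List (ℕ × ℤ)}
    (e : (eqWp D p (cw (a ++ c)) (cw (c ++ a)) && eqWp D p (cw (a ++ d)) (cw (d ++ a)) &&
      eqWp D p (cw (b ++ c)) (cw (c ++ b)) && eqWp D p (cw (b ++ d)) (cw (d ++ b))) = true) :
    Commute (zw F h a) (zw F h c) ∧ Commute (zw F h a) (zw F h d) ∧ Commute (zw F h b) (zw F h c) ∧
      Commute (zw F h b) (zw F h d) := by
  simp only [Bool.and_eq_true] at e
  exact ⟨zw_eq h hp e.1.1.1, zw_eq h hp e.1.1.2, zw_eq h hp e.1.2, zw_eq h hp e.2⟩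

end Words

theorem neg_one_pow_card [Fintype F] {q k : ℕ} (h : Fintype.card F = q ^ k) (hk : k ≠ 0) : (-1 : F) ^ q = -1 := by
  rcases Nat.even_or_odd q with e | e
  · haveI := ringChar.of_eq (FiniteField.even_card_iff_char_two.2
      (Nat.even_iff.1 (h ▸ (Nat.even_pow' hk).2 e)) : ringChar F = 2)
    rw [CharTwo.neg_eq, one_pow]
  · exact e.neg_one_pow

theorem bad_2E6 [Fintype F] {q : ℕ} (h : Fintype.card F = q ^ 2) : Bad (twistedE6 F q) := by
  have h1 := neg_one_pow_card h two_ne_zero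
  have B := fun i => br_x (faithful_E6 (K := F)) adjoint_E6.hMul (RE6.simple i)
  have k : ∀ {i j : Fin 6}, i ≠ j → AN chevE6 i j = 0 → ∀ {a b}, a ∈ Lv (CE6 F) i → b ∈ Lv (CE6 F) j →
      Commute a b := fun h h' _ _ => commute_of_orth h h'
  have k1 := @k 0 5 (by decide) (by decide +kernel)
  have k2 := @k 1 0 (by decide) (by decide +kernel)
  have k3 := @k 1 5 (by decide) (by decide +kernel)
  have p := fun i => x_mem_Lv (C := CE6 F) i 1
  have m := fun i => x_neg_mem_Lv (C := CE6 F) i (-1)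
  refine (bp_sub (K := KE6 F q) ?_ ?_ ?_ ?_ (B 1) ((B 0).mul (B 5) (k1 (p _) (p _)) (k1 (p _) (m _))
    (k1 (m _) (p _)) (k1 (m _) (m _))) ((k2 (p _) (p _)).mul_right (k3 (p _) (p _)))
    ((k2 (p _) (m _)).mul_right (k3 (p _) (m _))) ((k2 (m _) (p _)).mul_right (k3 (m _) (p _)))
    ((k2 (m _) (m _)).mul_right (k3 (m _) (m _)))).bad.congr (equivOfMap (subtype_injective _) map_KE6)
  · rw [xp_E6]; exact single_mem_KE6 (by decide) (one_pow _)
  · rw [xm_E6]; exact single_mem_KE6 (by decide) h1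
  · rw [xp_E6, xp_E6]; simpa using pair_mem_KE6 (q := q) (r := e6p1) (s := e6p6) (by decide) (1 : F)
  · rw [xm_E6, xm_E6]; simpa [h1] using pair_mem_KE6 (q := q) (r := e6m1) (s := e6m6) (by decide) (-1 : F)

theorem bad_3D4 [Fintype F] {q : ℕ} (h : Fintype.card F = q ^ 3) : Bad (twistedD4 F q) := by
  have h1 := neg_one_pow_card h three_ne_zero
  have B := fun i => br_x (faithful_D4 (K := F)) adjoint_D4.hMul (RD4.simple i)
  have k : ∀ {i j : Fin 4}, i ≠ j → AN chevD4 i j = 0 → ∀ {a b}, a ∈ Lv (CD4 F) i → b ∈ Lv (CD4 F) j →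
      Commute a b := fun h h' _ _ => commute_of_orth h h'
  have k1 := @k 2 3 (by decide) (by decide +kernel)
  have k2 := @k 0 2 (by decide) (by decide +kernel)
  have k3 := @k 0 3 (by decide) (by decide +kernel)
  have p := fun i => x_mem_Lv (C := CD4 F) i 1
  have m := fun i => x_neg_mem_Lv (C := CD4 F) i (-1)
  have b1 := (B 0).mul ((B 2).mul (B 3) (k1 (p _) (p _)) (k1 (p _) (m _))
    (k1 (m _) (p _)) (k1 (m _) (m _))) ((k2 (p _) (p _)).mul_right (k3 (p _) (p _)))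
    ((k2 (p _) (m _)).mul_right (k3 (p _) (m _))) ((k2 (m _) (p _)).mul_right (k3 (m _) (p _)))
    ((k2 (m _) (m _)).mul_right (k3 (m _) (m _)))
  have b2 := B 1
  simp only [xp_D4, xm_D4, d4p1, d4p2, d4p3, d4p4, d4m1, d4m2, d4m3, d4m4] at b1 b2
  have a1 : zw F checkedD4 [(18, 1), (13, 1), (12, 1)] ∈ KD4 F q ∧
      zw F checkedD4 [(5, -1), (10, -1), (11, -1)] ∈ KD4 F q ∧ Br (zw F checkedD4 [(18, 1), (13, 1), (12, 1)])
        (zw F checkedD4 [(5, -1), (10, -1), (11, -1)]) :=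
    ⟨by simpa [zw] using triple_mem_KD4 (q := q) (r := 18) (s := 13) (u := 12) (by decide) (1 : F),
      by simpa [zw, h1] using triple_mem_KD4 (q := q) (r := 5) (s := 10) (u := 11) (by decide) (-1 : F),
      by simpa [zw] using b1⟩
  have a2 : zw F checkedD4 [(14, 1)] ∈ KD4 F q ∧ zw F checkedD4 [(9, -1)] ∈ KD4 F q ∧
      Br (zw F checkedD4 [(14, 1)]) (zw F checkedD4 [(9, -1)]) :=
    ⟨by simpa [zw] using single_mem_KD4 (q := q) (r := 14) (by decide) (one_pow q : (1 : F) ^ q = 1),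
      by simpa [zw] using single_mem_KD4 (q := q) (r := 9) (by decide) h1, by simpa [zw] using b2⟩
  have a3 := zw_step checkedD4 (p := 0) Nat.cast_zero (c := [(23, -1)]) (d := [(0, 1)])
    (g := [(14, 1)] ++ [(9, -1)] ++ [(14, 1)] ++ ([(18, 1), (13, 1), (12, 1)] ++ [(5, -1), (10, -1), (11, -1)] ++
      [(18, 1), (13, 1), (12, 1)])) (by
      simp only [zw_append]
      exact mul_mem (mul_mem (mul_mem a2.1 a2.2.1) a2.1) (mul_mem (mul_mem a1.1 a1.2.1) a1.1))
    (by decide +kernel) a2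
  have a4 := zw_comm (F := F) checkedD4 (p := 0) Nat.cast_zero (a := [(18, 1), (13, 1), (12, 1)])
    (b := [(5, -1), (10, -1), (11, -1)]) (c := [(23, -1)]) (d := [(0, 1)]) (by decide +kernel)
  exact (bp_sub a1.1 a1.2.1 a3.1 a3.2.1 a1.2.2 a3.2.2 a4.1 a4.2.1 a4.2.2.1 a4.2.2.2).bad.congr
    (equivOfMap (subtype_injective _) map_KD4)

theorem bad_comm_2F4 (h2 : ((2 : ℕ) : F) = 0) {e : ℕ} (he : e ≠ 0) : Bad (commutator (twistedF4 F e)) := by
  have B := fun i => br_x (faithful_F4 (K := F)) adjoint_F4.hMul (RF4.simple i)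
  have k1 : ∀ {a b}, a ∈ Lv (CF4 F) 0 → b ∈ Lv (CF4 F) 3 → Commute a b := commute_of_orth (by decide) A03_F4
  have p := fun i => x_mem_Lv (C := CF4 F) i 1
  have m := fun i => x_neg_mem_Lv (C := CF4 F) i (-1)
  have b1 := (B 0).mul (B 3) (k1 (p _) (p _)) (k1 (p _) (m _)) (k1 (m _) (p _)) (k1 (m _) (m _))
  have h1 : (-1 : F) = 1 := by rw [neg_eq_iff_add_eq_zero, one_add_one_eq_two]; exact_mod_cast h2
  have h3 : (1 + 1 : F) = 0 := by rw [one_add_one_eq_two]; exact_mod_cast h2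
  simp only [neg_simple_F4] at b1
  simp only [simple_F4, x_F4, h1] at b1
  have g : ∀ w ∈ f4Words F e, wd checkedF4 w ∈ KF4 F e := fun _ => wd_mem_gen _
  have a1 : zw F checkedF4 [(33, 1), (24, 1)] ∈ KF4 F e ∧ zw F checkedF4 [(14, 1), (23, 1)] ∈ KF4 F e ∧
      Br (zw F checkedF4 [(33, 1), (24, 1)]) (zw F checkedF4 [(14, 1), (23, 1)]) :=
    ⟨by simpa [zw, f4PairWord] using g (f4PairWord e 33 24 1) (.inl ⟨1, .inl rfl⟩),
      by simpa [zw, f4PairWord] using g (f4PairWord e 14 23 1) (.inl ⟨1, .inr rfl⟩), by simpa [zw] using b1⟩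
  have n1 : zw F checkedF4 ([(27, 1), (25, 1), (28, 1)] ++ [(19, 1), (17, 1)] ++ [(27, 1), (25, 1), (30, 1)]) ∈
      KF4 F e := by
    rw [zw_append, zw_append]
    exact mul_mem (mul_mem (by simpa [zw, b2ClassWord, he] using g (b2ClassWord e 27 25 28 30 1 0) (.inr ⟨1, 0, .inl rfl⟩))
      (by simpa [zw, b2ClassWord, he] using g (b2ClassWord e 20 22 19 17 0 1) (.inr ⟨0, 1, .inr rfl⟩)))
      (by simpa [zw, b2ClassWord, h3] using g (b2ClassWord e 27 25 28 30 1 1) (.inr ⟨1, 1, .inl rfl⟩))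
  have a2 := zw_step checkedF4 h2 (c := [(37, 1), (32, 1)]) (d := [(10, 1), (15, 1)]) n1 (by decide +kernel) a1
  have a3 := zw_step checkedF4 h2 (c := [(38, 1), (43, 1)]) (d := [(9, 1), (4, 1)])
    (g := [(33, 1), (24, 1)] ++ [(14, 1), (23, 1)] ++ [(33, 1), (24, 1)]) (by
      rw [zw_append, zw_append]; exact mul_mem (mul_mem a1.1 a1.2.1) a1.1) (by decide +kernel) a2
  have a4 := zw_step checkedF4 h2 (c := [(39, 1), (45, 1)]) (d := [(8, 1), (2, 1)]) n1 (by decide +kernel) a3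
  have a5 := zw_comm checkedF4 h2 (a := [(33, 1), (24, 1)]) (b := [(14, 1), (23, 1)]) (c := [(39, 1), (45, 1)])
    (d := [(8, 1), (2, 1)]) (by decide +kernel)
  have s1 := zw_eq checkedF4 h2 (a := [(33, 1), (24, 1)]) (b := [(33, 1), (24, 1)]) (c := []) (d := [])
    (by decide +kernel)
  have s2 := zw_eq checkedF4 h2 (a := [(39, 1), (45, 1)]) (b := [(39, 1), (45, 1)]) (c := []) (d := [])
    (by decide +kernel)
  have k : ∀ {a b} (ha : a ∈ KF4 F e) (hb : b ∈ KF4 F e), Br a b → Br (⟨a, ha⟩ : KF4 F e) ⟨b, hb⟩ :=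
    fun _ _ h => ⟨Subtype.ext h.braid, Subtype.ext h.four, fun e => h.ne (congrArg Subtype.val e)⟩
  have c1 := k a1.1 a1.2.1 a1.2.2
  have c2 := k a4.1 a4.2.1 a4.2.2
  exact (c1.nc c2 (Subtype.ext a5.1) (Subtype.ext a5.2.1) (Subtype.ext a5.2.2.1) (Subtype.ext a5.2.2.2)
    (c1.mem_comm (Subtype.ext (s1.trans (mul_one 1)))) (c2.mem_comm (Subtype.ext (s2.trans (mul_one 1))))).bad3.comm
    (equivOfMap (subtype_injective _) map_KF4)

theorem bad_Ree [Fintype F] {m : ℕ} (hm : 1 ≤ m) (h : Fintype.card F = 3 ^ (2 * m + 1)) :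
    Bad (twistedG2 F (3 ^ m)) := by
  have h1 := Agent.S1069.result h
  haveI : Finite (twistedG2 F (3 ^ m)) := Nat.finite_of_card_ne_zero (by
    rw [h1]
    have : 1 < 3 ^ (2 * m + 1) := Nat.one_lt_pow (by omega) (by omega)
    exact mul_ne_zero (mul_ne_zero (by positivity) (by omega)) (by positivity))
  haveI : CharP F 3 := charP_of_card_eq_prime_pow h
  refine ⟨3, Nat.prime_three, by decide, not_cy_of_mat Nat.prime_three
    ((Units.coeHom _).comp (Subgroup.subtype _)) (Units.val_injective.comp (subtype_injective _)) (k := 3) ?_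
    (by simp; decide)⟩
  rw [h1, ← pow_mul, mul_assoc]
  exact (pow_dvd_pow _ (by omega)).mul_right _

end Cfsg.Lib.QT
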