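import Cfsg.Agent.Lib.QT.CycLie
import Cfsg.Agent.Lib.Unitary.Center
import Cfsg.Agent.Lib.Linear.Basic

/-! Linear, unitary and alternating groups with a non-cyclic Sylow subgroup of odd order. -/

namespace Cfsg.Lib.QT
open Subgroup Matrix Cfsg.Lib.Unitary

variable {G : Type*} [Group G] {F : Type*} [Field F]

theorem bad_char [Finite G] {ι : Type*} [Fintype ι] [DecidableEq ι] [Nonempty ι] {p : ℕ}
    (hp : p.Prime) (h2 : p ≠ 2) [CharP F p] (f : G →* Matrix ι ι F) (hf : Function.Injective f)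
    (hZ : ∀ g ∈ center G, ∃ c : F, f g = c • 1) {k : ℕ} (h : p ^ (k + 1) ∣ Nat.card G)
    (hk : Fintype.card ι ≤ p ^ k) : Bad (G ⧸ center G) := by
  refine ⟨p, hp, h2, fun hc => not_cy_of_mat hp f hf h hk
    (hc.of_hom (QuotientGroup.mk' _) fun x hx hx' => ?_)⟩
  obtain ⟨c, e⟩ := hZ x ((QuotientGroup.eq_one_iff x).1 hx)
  have h1 := congrArg f hx'
  obtain ⟨i⟩ := ‹Nonempty ι›
  rw [map_pow, e, map_one, smul_pow, one_pow] at h1
  have h3 : c ^ p = 1 := by simpa using congrFun (congrFun h1 i) i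
  haveI := Fact.mk hp
  have h4 : c = 1 := frobenius_inj F p (by rw [frobenius_def, h3, map_one])
  exact hf (by rw [e, h4, one_smul, map_one])

theorem nc_diag {n r : ℕ} (f : G →* Matrix (Fin (n + 3)) (Fin (n + 3)) F)
    (hf : Function.Injective f) (hZ : ∀ g ∈ center G, ∃ c : F, f g = c • 1) {a : F}
    (ha : IsPrimitiveRoot a r) (hr : r.Prime) (hn : n ≠ 0 ∨ r ≠ 3)
    (hD : ∀ d : Fin (n + 3) → F, (∀ i, d i ^ r = 1) → ∏ i, d i = 1 → ∃ g, f g = diagonal d) :
    NC r (G ⧸ center G) := by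
  have a0 : a ≠ 0 := ha.ne_zero hr.ne_zero
  have a1 : a ≠ 1 := ha.ne_one hr.one_lt
  have P : ∀ {g d}, f g = diagonal d → (∀ i, d i ^ r = 1) → ((g : G) : G ⧸ center G) ^ r = 1 :=
    fun {g d} e hd => by
      have : g ^ r = 1 := hf (by
        rw [map_pow, e, diagonal_pow, map_one, ← diagonal_one]; congr 1; exact funext hd)
      rw [← QuotientGroup.mk_pow, this, QuotientGroup.mk_one]
  have d1 : ∀ i, (vecCons a (vecCons a⁻¹ (vecCons 1 1)) : Fin (n + 3) → F) i ^ r = 1 := by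
    simp [Fin.forall_fin_succ, ha.pow_eq_one]
  have d2 : ∀ i, (vecCons 1 (vecCons a (vecCons a⁻¹ 1)) : Fin (n + 3) → F) i ^ r = 1 := by
    simp [Fin.forall_fin_succ, ha.pow_eq_one]
  obtain ⟨x, hx⟩ := hD _ d1 (by simp [Fin.prod_univ_succ, a0])
  obtain ⟨y, hy⟩ := hD _ d2 (by simp [Fin.prod_univ_succ, a0])
  refine ⟨x, y, P hx d1, P hy d2, ?_, fun e => ?_, fun e => ?_⟩
  · have : x * y = y * x := hf (by rw [map_mul, map_mul, hx, hy]; exact commute_diagonal _ _)
    exact congrArg (QuotientGroup.mk : G → G ⧸ center G) this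
  · obtain ⟨c, hc⟩ := hZ y ((QuotientGroup.eq_one_iff y).1 e)
    rw [hy] at hc
    have e0 := congrFun (congrFun hc 0) 0
    have e1 := congrFun (congrFun hc 1) 1
    simp at e0 e1
    exact a1 (e1.trans e0.symm)
  · rw [← (isOfFinOrder_iff_pow_eq_one.2 ⟨r, hr.pos, P hy d2⟩).mem_powers_iff_mem_zpowers] at e
    obtain ⟨k, hk⟩ := e
    obtain ⟨c, hc⟩ := hZ _ (QuotientGroup.eq.1 ((QuotientGroup.mk_pow _ _ _).trans hk))
    have E : f x = c • f y ^ k := by
      rw [← map_pow, ← mul_one (f (y ^ k)), ← Matrix.mul_smul, ← hc, ← map_mul,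
        mul_inv_cancel_left]
    rw [hx, hy, diagonal_pow] at E
    have e0 := congrFun (congrFun E 0) 0
    have e1 := congrFun (congrFun E 1) 1
    have e2 := congrFun (congrFun E (Fin.succ 1)) (Fin.succ 1)
    simp only [Matrix.smul_apply, diagonal_apply_eq, Pi.pow_apply, cons_val_zero, cons_val_one,
      cons_val_succ, one_pow, smul_eq_mul, mul_one] at e0 e1 e2
    rcases hn with hn | hn
    · obtain ⟨m, rfl⟩ := Nat.exists_eq_succ_of_ne_zero hn
      have e3 := congrFun (congrFun E (Fin.succ (Fin.succ 1))) (Fin.succ (Fin.succ 1))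
      simp only [Matrix.smul_apply, diagonal_apply_eq, Pi.pow_apply, cons_val_one,
        cons_val_succ, one_pow, smul_eq_mul, mul_one, Pi.one_apply] at e3
      exact a1 (e0.trans e3.symm)
    · rw [← e0, inv_pow, eq_mul_inv_iff_mul_eq₀ (pow_ne_zero _ a0), one_mul] at e2
      rw [← e0, e2, inv_eq_iff_eq_inv, eq_comm, inv_eq_iff_eq_inv, eq_comm,
        inv_eq_iff_eq_inv] at e1
      have : a ^ 3 = 1 := by field_simp at e1; linear_combination e1
      exact hn ((Nat.prime_dvd_prime_iff_eq hr Nat.prime_three).1 (ha.dvd_of_pow_eq_one _ this))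

theorem nc_three (f : G →* Matrix (Fin 3) (Fin 3) F) (hf : Function.Injective f) {a : F}
    (ha : IsPrimitiveRoot a 3) {x y : G} (hx : f x = !![1, 0, 0; 0, a, 0; 0, 0, a ^ 2])
    (hy : f y = !![0, 1, 0; 0, 0, 1; 1, 0, 0]) : NC 3 (G ⧸ center G) := by
  have a3 := ha.pow_eq_one
  have Z : ∀ (g : G) (c : F), f g = c • 1 → g ∈ center G := fun g c e =>
    mem_center_iff.2 fun h => hf (by rw [map_mul, map_mul, e]; simp)
  have E : f (x * y) = a ^ 2 • f (y * x) := by
    rw [map_mul, map_mul, hx, hy]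
    ext i j; fin_cases i <;> fin_cases j <;> simp [Matrix.mul_apply, Fin.sum_univ_three]
    all_goals first | linear_combination (-1) * a3 | linear_combination (-a) * a3
  refine nc_quot (x := x) (y := y) (Z _ 1 ?_) (Z _ 1 ?_) (Z _ (a ^ 2) ?_) fun e => ?_
  · rw [map_pow, hx]
    ext i j; fin_cases i <;> fin_cases j <;> simp [pow_succ, Matrix.mul_apply, Fin.sum_univ_three]
    all_goals first | linear_combination a3 | linear_combination (a ^ 3 + 1) * a3
  · rw [map_pow, hy]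
    ext i j; fin_cases i <;> fin_cases j <;> simp [pow_succ, Matrix.mul_apply, Fin.sum_univ_three]
  · rw [show x⁻¹ * y⁻¹ * x * y = (y * x)⁻¹ * (x * y) by group, map_mul, E, Matrix.mul_smul,
      ← map_mul, inv_mul_cancel, map_one]
  · rw [e, map_mul, hx, hy] at E
    have := congrFun (congrFun E 2) 0
    simp [Matrix.mul_apply, Fin.sum_univ_three] at this
    exact absurd (ha.dvd_of_pow_eq_one 2 this.symm) (by norm_num)

theorem bad_mono {n r : ℕ} (hn : 3 ≤ n) (f : G →* Matrix (Fin n) (Fin n) F)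
    (hf : Function.Injective f) (hZ : ∀ g ∈ center G, ∃ c : F, f g = c • 1) {a : F}
    (ha : IsPrimitiveRoot a r) (hr : r.Prime) (h2 : r ≠ 2) {τ : F → F} (t0 : τ 0 = 0)
    (t1 : τ 1 = 1) (ht : ∀ t, t ^ r = 1 → τ t * t = 1)
    (hD : ∀ M : Matrix (Fin n) (Fin n) F, M.det = 1 → (M.map τ)ᵀ * M = 1 → ∃ g, f g = M) :
    Bad (G ⧸ center G) := by
  obtain ⟨k, rfl⟩ := Nat.exists_eq_add_of_le' hn
  have hD' : ∀ d : Fin (k + 3) → F, (∀ i, d i ^ r = 1) → ∏ i, d i = 1 → ∃ g, f g = diagonal d :=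
    fun d h1 h3 => hD _ (by rw [det_diagonal, h3]) (by
      rw [diagonal_map t0, diagonal_transpose, diagonal_mul_diagonal, ← diagonal_one]
      congr 1; ext i; exact ht _ (h1 i))
  by_cases h : k ≠ 0 ∨ r ≠ 3
  · exact (nc_diag f hf hZ ha hr h hD').bad hr h2
  · push Not at h
    obtain ⟨rfl, rfl⟩ := h
    obtain ⟨x, hx⟩ := hD' ![1, a, a ^ 2] (by
      simp only [Fin.forall_fin_succ]
      simp [ha.pow_eq_one, pow_right_comm a 2 3]) (by
      simp [Fin.prod_univ_succ, ← pow_succ', ha.pow_eq_one])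
    obtain ⟨y, hy⟩ := hD !![0, 1, 0; 0, 0, 1; 1, 0, 0] (by simp [det_fin_three]) (by
      ext i j; fin_cases i <;> fin_cases j <;> simp [Matrix.mul_apply, Fin.sum_univ_three, t0, t1])
    exact (nc_three f hf ha (hx.trans (by ext i j; fin_cases i <;> fin_cases j <;> rfl)) hy).bad3

/-- The inclusion of `SL` into the matrix ring. -/
def slM (ι : Type*) [Fintype ι] [DecidableEq ι] (F : Type*) [Field F] :
    SpecialLinearGroup ι F →* Matrix ι ι F where
  toFun g := g.1
  map_one' := rfl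
  map_mul' _ _ := rfl

theorem slM_center {n : ℕ} (g : SpecialLinearGroup (Fin n) F) (h : g ∈ center _) :
    ∃ c : F, slM _ F g = c • 1 := by
  obtain ⟨c, -, e⟩ := Matrix.SpecialLinearGroup.mem_center_iff.1 h
  exact ⟨c, e.symm.trans (by rw [scalar_apply, ← smul_one_eq_diagonal])⟩

theorem bad_PSU [Fintype F] {n q : ℕ} (hF : Fintype.card F = q ^ 2) (hn : 3 ≤ n) :
    Bad (PSU n F q) := by
  obtain ⟨p, e, hp, _, he, hq⟩ := exists_prime_pow_of_card hF
  have hf : Function.Injective ((slM (Fin n) F).comp (SU n F q).subtype) :=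
    Subtype.val_injective.comp Subtype.val_injective
  have hZ : ∀ g ∈ center (SU n F q), ∃ c : F, (slM (Fin n) F).comp (SU n F q).subtype g = c • 1 :=
    fun g hg => (mem_center_SU hF (by omega)).1 hg
  have pq : p ∣ q := hq ▸ dvd_pow_self p (by omega)
  by_cases h2 : p = 2
  · obtain ⟨σ, hσ⟩ := exists_isBar hF
    obtain ⟨r, hr, hd⟩ := Nat.exists_prime_and_dvd (n := q + 1) (by have := hσ.two_le; omega)
    obtain ⟨ζ, hζ⟩ := hσ.exists_primitive_norm_one
    obtain ⟨s, hs⟩ := hd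
    refine bad_mono hn _ hf hZ (hζ.pow (by omega) (hs.trans (mul_comm _ _))) hr
      (by rw [h2] at pq; rintro rfl; omega) (τ := σ) (map_zero _) (map_one _) (fun t ht => ?_)
      fun M h1 h3 => ⟨⟨⟨M, h1⟩, hσ.mem_SU_iff.2 h3⟩, rfl⟩
    rw [mul_comm, hσ.norm_eq, hs, pow_mul, ht, one_pow]
  · haveI : Nonempty (Fin n) := ⟨⟨0, by omega⟩⟩
    refine bad_char hp h2 _ hf hZ (k := n - 1) ?_ ?_
    · refine (Nat.Coprime.pow_left _ (?_ : p.Coprime (q + 1))).dvd_of_dvd_mul_left ?_
      · exact (Nat.Prime.coprime_iff_not_dvd hp).2 fun k =>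
          hp.one_lt.ne' (Nat.dvd_one.1 ((Nat.dvd_add_right pq).1 k))
      · rw [card_SU hF (by omega)]
        refine ((pow_dvd_pow_of_dvd pq _).trans (pow_dvd_pow _ ?_)).mul_right _
        obtain ⟨k, rfl⟩ := Nat.exists_eq_add_of_le' hn
        rw [Nat.le_div_iff_mul_le two_pos]
        exact Nat.mul_le_mul (by omega) (by omega)
    · rw [Fintype.card_fin]
      have := Nat.lt_pow_self hp.one_lt (n := n - 1)
      omega

theorem pow_dvd_SL [Fintype F] {n : ℕ} :
    Fintype.card F ^ n ∣ Nat.card (SpecialLinearGroup (Fin (n + 1)) F) := by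
  have h1 : 1 ≤ Fintype.card F := Fintype.card_pos
  refine (Nat.Coprime.pow_left n (?_ : (Fintype.card F).Coprime
    (Fintype.card F - 1))).dvd_of_dvd_mul_left ?_
  · exact (Nat.coprime_self_sub_right h1).2 (by simp)
  · rw [Linear.card_SL_mul, card_GL_field, Fin.prod_univ_castSucc]
    exact (Nat.dvd_sub (pow_dvd_pow _ (by omega)) (by simp)).mul_left _

theorem bad_PSL3 [Fintype F] (h : Fintype.card F ≠ 2) :
    Bad (ProjectiveSpecialLinearGroup (Fin 3) F) := by
  obtain ⟨p, hc, ⟨e, he⟩, hp, hq⟩ := FiniteField.card' F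
  have pq : p ∣ Fintype.card F := hq ▸ dvd_pow_self p (by simp; omega)
  by_cases h2 : p = 2
  · have h1 := Fintype.one_lt_card (α := F)
    obtain ⟨r, hr, hd⟩ := Nat.exists_prime_and_dvd (n := Fintype.card F - 1) (by omega)
    haveI := Fact.mk hr
    classical
    obtain ⟨a, ha⟩ := exists_prime_orderOf_dvd_card (G := Fˣ) r (by rwa [Fintype.card_units])
    refine bad_mono le_rfl (slM _ F) Subtype.val_injective slM_center
      (IsPrimitiveRoot.coe_units_iff.2 (ha ▸ IsPrimitiveRoot.orderOf a)) hr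
      (by rw [h2] at pq; rintro rfl; omega) (τ := fun t => t⁻¹) inv_zero inv_one (fun t ht => ?_)
      fun M h1 _ => ⟨⟨M, h1⟩, rfl⟩
    exact inv_mul_cancel₀ (by rintro rfl; simp [hr.ne_zero] at ht)
  · refine bad_char hp h2 (slM _ F) Subtype.val_injective slM_center (k := 1)
      ((pow_dvd_pow_of_dvd pq _).trans pow_dvd_SL) ?_
    have := hp.two_le
    simp; omega

theorem bad_PSL2 [Fintype F] (h2 : ¬ CharP F 2) (h : ¬ (Fintype.card F).Prime) :
    Bad (ProjectiveSpecialLinearGroup (Fin 2) F) := by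
  obtain ⟨p, hc, ⟨e, he⟩, hp, hq⟩ := FiniteField.card' F
  refine bad_char hp (by rintro rfl; exact h2 hc) (slM _ F) Subtype.val_injective slM_center
    (k := 1) (dvd_trans ?_ pow_dvd_SL) (by simpa using hp.two_le)
  rw [hq, pow_one]
  refine pow_dvd_pow _ ?_
  by_contra k
  obtain rfl : e = 1 := by simp at k; omega
  exact h (hq ▸ by simpa using hp)

theorem bad_alt {n : ℕ} (hn : 6 ≤ n) : Bad (alternatingGroup (Fin n)) := by
  have : NC 3 (alternatingGroup (Fin 6)) := by
    have h : Br (Equiv.swap (0 : Fin 6) 1) (Equiv.swap 1 2) := ⟨by decide, by decide, by decide⟩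
    have h' : Br (Equiv.swap (3 : Fin 6) 4) (Equiv.swap 4 5) := ⟨by decide, by decide, by decide⟩
    refine h.nc h' ?_ ?_ ?_ ?_ ?_ ?_ <;>
      first | (unfold Commute SemiconjBy; decide) | (rw [Equiv.Perm.mem_alternatingGroup]; simp)
  refine this.bad3.of_inj (((Equiv.Perm.viaEmbeddingHom (Fin.castLEEmb hn)).comp
    (alternatingGroup _).subtype).codRestrict _ fun x => ?_) ?_
  · rw [Equiv.Perm.mem_alternatingGroup]
    classical
    exact (@Equiv.Perm.sign_extendDomain _ _ _ _ _ _ _ _ (_) _).trans x.2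
  · rw [MonoidHom.injective_codRestrict]
    exact (Equiv.Perm.viaEmbeddingHom_injective _).comp Subtype.val_injective

end Cfsg.Lib.QT
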