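import Cfsg.Agent.Lib.QT.Cyc
import Cfsg.Agent.Lib.Orth.Simple
import Cfsg.Agent.Lib.Orth.Matrix

/-! Orthogonal groups `PΩ` of Witt index at least two have non-cyclic Sylow 3-subgroups. -/

namespace Cfsg.Lib.QT
open Subgroup Cfsg.Lib.Orth QuadraticMap Module

variable {F V : Type*} [Field F] [AddCommGroup V] [Module F V] {Q : QuadraticForm F V}

theorem br_refl {u v w : V} {c : F} (hc : c ≠ 0) (hu : Q u = c) (hv : Q v = c)
    (h : polar Q u v = -c) (h1 : polar Q u w = 0) (h2 : polar Q v w ≠ 0) :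
    Br (refl Q u) (refl Q v) := by
  have e1 : refl Q u * refl Q v * refl Q u = refl Q (u + v) := by
    have := conj_refl (refl Q u) v
    rw [refl_inv, refl_apply, hu, h, mul_neg, inv_mul_cancel₀ hc, neg_smul, one_smul,
      sub_neg_eq_add, add_comm] at this
    exact this
  have e2 : refl Q v * refl Q u * refl Q v = refl Q (u + v) := by
    have := conj_refl (refl Q v) u
    rw [refl_inv, refl_apply, hv, polar_comm, h, mul_neg, inv_mul_cancel₀ hc, neg_smul, one_smul,
      sub_neg_eq_add] at this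
    exact this
  refine ⟨e1.trans e2.symm, ?_, fun e => ?_⟩
  · rw [e1, show 4 = 2 * 2 from rfl, pow_mul, pow_two (refl Q _), refl_mul_self, one_pow]
  · have := congrArg (fun g : O Q => g.1 w) e
    simp only [refl_apply_of_perp h1, refl_apply] at this
    rw [eq_comm, sub_eq_self, smul_eq_zero, mul_eq_zero, hv, inv_eq_zero] at this
    rcases this with (k | k) | k
    · exact hc k
    · exact h2 k
    · exact hc (by rw [← hv, k, map_zero])

theorem nc_omega {e f e' f' : V} (qe : Q e = 0) (qf : Q f = 0) (qe' : Q e' = 0) (qf' : Q f' = 0)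
    (p1 : polar Q e f = 1) (p2 : polar Q e' f' = 1) (p3 : polar Q e e' = 0)
    (p4 : polar Q e f' = 0) (p5 : polar Q f e' = 0) (p6 : polar Q f f' = 0) :
    NC 3 (commutator (O Q)) := by
  have s : ∀ x, Q x = 0 → polar Q x x = 0 := fun x hx => by rw [polar_self', hx, mul_zero]
  have a1 := s _ qe
  have a2 := s _ qf
  have a3 := s _ qe'
  have a4 := s _ qf'
  have b1 : polar Q f e = 1 := by rw [polar_comm, p1]
  have b2 : polar Q f' e' = 1 := by rw [polar_comm, p2]
  have b3 : polar Q e' e = 0 := by rw [polar_comm, p3]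
  have b4 : polar Q f' e = 0 := by rw [polar_comm, p4]
  have b5 : polar Q e' f = 0 := by rw [polar_comm, p5]
  have b6 : polar Q f' f = 0 := by rw [polar_comm, p6]
  have A : ∀ x y, Q (x + y) = Q x + Q y + polar Q x y := fun x y => by simp [polar]
  have h : Br (refl Q (e + f)) (refl Q (-e + (e' + f'))) := by
    refine br_refl (w := e') one_ne_zero ?_ ?_ ?_ ?_ ?_ <;>
      simp only [A, polar_add_left, polar_add_right, polar_neg_left, polar_neg_right,
        QuadraticMap.map_neg, *] <;> norm_num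
  have h' : Br (refl Q (e + (-f + -f'))) (refl Q (f' + -e')) := by
    refine br_refl (c := -1) (w := f') (by norm_num) ?_ ?_ ?_ ?_ ?_ <;>
      simp only [A, polar_add_left, polar_add_right, polar_neg_left, polar_neg_right,
        QuadraticMap.map_neg, *] <;> norm_num
  refine h.nc h' ?_ ?_ ?_ ?_ (h.mem_comm (refl_mul_self _)) (h'.mem_comm (refl_mul_self _)) <;>
    refine refl_comm_of_perp ?_ <;>
    simp only [polar_add_left, polar_add_right, polar_neg_left, polar_neg_right, *] <;> norm_num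

theorem bad_pcom [Finite F] [FiniteDimensional F V] (hQ : ND Q) (h5 : 5 ≤ finrank F V)
    (h : NC 3 (commutator (O Q))) : Bad (PCom (O Q)) := by
  refine h.bad3.quot _ fun x hx => ?_
  rcases (mem_center_commutator_iff hQ (not_exc_of_five_le h5) (by omega)).1 hx with k | k
  · rw [show x = 1 from Subtype.ext k, one_pow]
  · refine Subtype.ext ?_
    rw [Subgroup.coe_pow, k, pow_two]
    exact O.ext fun v => by simp

theorem bad_POdd [Fintype F] {m : ℕ} (hm : 3 ≤ m) (h : Odd (Fintype.card F)) :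
    Bad (POmega F (quadFormOdd m F)) := by
  obtain ⟨k, rfl⟩ := Nat.exists_eq_add_of_le' hm
  refine (bad_pcom (nd_qOdd (two_ne_zero_of_odd_card h) (k + 3)) (by simp; omega)
    (nc_omega (e := Pi.single (.inr (.inl 0)) 1) (f := Pi.single (.inr (.inr 0)) 1)
      (e' := Pi.single (.inr (.inl 1)) 1) (f' := Pi.single (.inr (.inr 1)) 1)
      ?_ ?_ ?_ ?_ ?_ ?_ ?_ ?_ ?_ ?_)).congr (pomegaEquiv (qOdd (k + 3) F)) <;>
    simp [qOdd_apply, polar_qOdd, Pi.single_apply]

theorem bad_PPlus [Fintype F] {m : ℕ} (hm : 4 ≤ m) : Bad (POmega F (quadFormPlus m F)) := by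
  obtain ⟨k, rfl⟩ := Nat.exists_eq_add_of_le' hm
  refine (bad_pcom (nd_qPlus (k + 4)) (by simp; omega)
    (nc_omega (e := Pi.single (.inl 0) 1) (f := Pi.single (.inr 0) 1)
      (e' := Pi.single (.inl 1) 1) (f' := Pi.single (.inr 1) 1)
      ?_ ?_ ?_ ?_ ?_ ?_ ?_ ?_ ?_ ?_)).congr (pomegaEquiv (qPlus (k + 4) F)) <;>
    simp [qPlus_apply, polar_qPlus, Pi.single_apply]

theorem bad_PMinus [Fintype F] {m : ℕ} (hm : 4 ≤ m) {a b : F}
    (hab : ∀ z₁ z₂ : F, z₁ ^ 2 + a * z₁ * z₂ + b * z₂ ^ 2 = 0 → z₁ = 0 ∧ z₂ = 0) :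
    Bad (POmega F (quadFormMinus (m - 1) F a b)) := by
  obtain ⟨k, rfl⟩ := Nat.exists_eq_add_of_le' hm
  change Bad (POmega F (quadFormMinus (k + 3) F a b))
  refine (bad_pcom (nd_qMinus (k + 3) hab) (by simp; omega)
    (nc_omega (e := Pi.single (.inl (.inl 0)) 1) (f := Pi.single (.inl (.inr 0)) 1)
      (e' := Pi.single (.inl (.inl 1)) 1) (f' := Pi.single (.inl (.inr 1)) 1)
      ?_ ?_ ?_ ?_ ?_ ?_ ?_ ?_ ?_ ?_)).congr (pomegaEquiv (qMinus (k + 3) F a b)) <;>
    simp [qMinus_apply, polar_qMinus, Pi.single_apply]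

end Cfsg.Lib.QT
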