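import Cfsg.Agent.Lib.QT.GL
import Cfsg.Agent.Lib.Transfer.Criteria

/-! # `𝒞`-components of strongly quasithin groups -/

set_option autoImplicit false
set_option linter.unusedSectionVars false

namespace Cfsg.Lib.QT

open Subgroup Cfsg.Lib.BG Cfsg.Lib.Core Cfsg.Lib.Loc Cfsg.Lib.KS
open Cfsg.Lib.Comp hiding core_top comm_sup_le' ncl conj_le_ncl le_ncl ncl_le ncl_mono norm_ncl ncl_nml
open scoped Cfsg.Lib.Transfer commutatorElement

variable {G : Type*} [Group G] [Finite G] {A H J K L M N P Q T : Subgroup G} {p : ℕ} {g : G}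

theorem exists_noncentral [Fact p.Prime] (hp2 : p ≠ 2) (hL : ⁅L, L⁆ = L) (h : p ∣ Nat.card L) :
    ∃ x ∈ L, x ^ p = 1 ∧ x ∉ 𝐂(L) := by
  by_contra e
  push Not at e
  have h1 : HasNormalPComplement p L := Transfer.hasNormalPComplement_subgroup_iff.2
    fun Q h1 hQ g h2 h3 h4 => coprime_odd_cent_Ohm1 hp2 (zpowers_le.2 h3) (by rwa [Nat.card_zpowers]) hQ
      (cent_symm (PGroup.omegaOne_le_iff.2 fun x hx h5 => cent_anti (zpowers_le.2 h2) (e x (h1 hx) h5)))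
      (mem_zpowers g)
  have h2 := Transfer.hasNormalPComplement_iff_card_pResidual.1 h1
  rw [← res_subgroupOf_self, res_eq_of_perfect hL, subOf_card le_rfl] at h2
  exact (Fact.out : p.Prime).one_lt.ne' (Nat.eq_one_of_dvd_coprimes h2 h dvd_rfl)

theorem rk_cent_lt [Fact p.Prime] (hp2 : p ≠ 2) (hL : ⁅L, L⁆ = L) (h : p ∣ Nat.card L) (h1 : L ≤ H)
    (h2 : M ≤ H) (h3 : M ≤ 𝐂(L)) : rk p M < rk p H := by
  obtain ⟨x, h4, h5, h6⟩ := exists_noncentral hp2 hL h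
  obtain ⟨E, hE⟩ := exists_elem_rk p M
  exact ((hE.mono h2).sup_zpowers (h1 h4) (cent_symm (hE.le.trans h3) h4) h5
    fun e => h6 (h3 (hE.le e))).le_rk

theorem le_cent_Fitting (h0 : pCoreOf 2 H = ⊥)
    (h : ∀ p : ℕ, p.Prime → p ≠ 2 → A ≤ 𝐂(𝐎({p}, H))) : A ≤ 𝐂(𝐅(H)) :=
  cent_symm (nil_le_of_pcore_le (Fitting_nil H) fun q hq _ => by
    haveI := Fact.mk hq
    rw [pcore_Fitting]
    rcases eq_or_ne q 2 with rfl | e
    · rw [← core_eq_pcore, h0]; exact bot_le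
    · exact cent_symm (h q hq e))

theorem le_Fitting_of_rad (h1 : A ≤ 𝐒(H)) (h2 : A ≤ 𝐂(𝐅(H))) : A ≤ 𝐅(H) :=
  have e := (rad_nml H).Fitting_le
  ((le_inf h1 (h2.trans (cent_anti e))).trans (cent_sub_Fitting (rad_sol H))).trans e

namespace CC

variable (h : CC L H)
include h

theorem cent (hK : CC K H) (e : L ≠ K) (hs : SQ H) (h0 : pCoreOf 2 H = ⊥) : L ≤ 𝐂(K) := by
  have h1 := h.comm_le hK e
  have n1 := h.norm hK
  have n2 := hK.norm h
  have h2 : ∀ p : ℕ, p.Prime → p ≠ 2 → L ≤ 𝐂(𝐎({p}, H)) ∨ K ≤ 𝐂(𝐎({p}, H)) := fun p hp h2 =>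
    haveI := Fact.mk hp
    cent_or h2 (pcore_pgroup p H) ((rk_mono (pcore_le _ _) p).trans (hs p hp h2)) h.perf hK.perf
      (h.le.trans (pcore_nml _ _).norm) (hK.le.trans (pcore_nml _ _).norm) n1 (sol_of_le (rad_sol H) h1)
  have h3 : ⁅L, K⁆ ≤ 𝐅(H) := le_Fitting_of_rad h1 (le_cent_Fitting h0 fun p hp h3 =>
    have n := norm_cent (pcore_nml {p} H).norm
    (h2 p hp h3).elim (fun e => (commutator_mono e le_rfl).trans (comm_le_left (hK.le.trans n)))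
      fun e => (commutator_mono le_rfl e).trans (comm_le_right (h.le.trans n)))
  have h4 : ⁅L, K⁆ ≤ ⁅L, K⁆ ⊓ 𝐂(L) ⊔ ⁅L, K⁆ ⊓ 𝐂(K) :=
    nil_le_of_pcore_le (nil_of_le (Fitting_nil H) h3) fun q hq _ => by
      haveI := Fact.mk hq
      have h4 := le_pcore_of_le_Fitting ((pcore_le _ _).trans h3) (pcore_pgroup q ⁅L, K⁆)
      rcases eq_or_ne q 2 with rfl | e
      · rw [← core_eq_pcore H, h0] at h4; exact h4.trans bot_le
      · exact (h2 q hq e).elim (fun e => (le_inf (pcore_le _ _) (h4.trans (cent_symm e))).trans le_sup_left)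
          fun e => (le_inf (pcore_le _ _) (h4.trans (cent_symm e))).trans le_sup_right
  have n3 : L ≤ 𝐍(⁅L, K⁆ ⊓ 𝐂(L)) := norm_inf (left_norm_comm _ _) (norm_cent (le_norm _))
  have n4 : K ≤ 𝐍(⁅L, K⁆ ⊓ 𝐂(L)) := norm_inf (right_norm_comm _ _) (norm_cent n1)
  have h5 := comm_le_of_perf hK.perf ((commutator_mono h4 le_rfl).trans (comm_sup_le (le_norm _)
    (inf_le_left.trans ((comm_le_left n1).trans n3)) (comm_le_left n4)
    ((comm_eq_bot_iff.2 inf_le_right).le.trans bot_le))) n3 n4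
  rw [commutator_comm] at h5
  exact comm_eq_bot_iff'.1 (le_bot_iff.1 (comm_le_of_perf h.perf
    (comm_eq_bot_iff.2 (h5.trans inf_le_right)).le (le_top.trans norm_bot.ge) (le_top.trans norm_bot.ge)))

theorem quo_core : CC (BG.quo L (pCoreOf 2 H)) (BG.quo H (pCoreOf 2 H)) :=
  h.quo (le_normalizer_core _ _) (h.not_le (pgroup_sol (core_pgroup _ _)))

theorem quo_ne (hK : CC K H) (e : L ≠ K) : BG.quo L (pCoreOf 2 H) ≠ BG.quo K (pCoreOf 2 H) := fun e1 =>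
  e (h.eq_of_le_sup hK (pgroup_sol (core_pgroup 2 H)) (core_nml _ _) ((quo_le_quo_iff
    (h.le.trans (le_normalizer_core _ _)) (hK.le.trans (le_normalizer_core _ _))).1 e1.le))

theorem quo_cent (hK : CC K H) (e : L ≠ K) (hs : SQ H) :
    BG.quo L (pCoreOf 2 H) ≤ 𝐂(BG.quo K (pCoreOf 2 H)) :=
  h.quo_core.cent hK.quo_core (h.quo_ne hK e) (hs.quo (le_normalizer_core _ _) (core_pgroup _ _))
    (core_quo_core 2 H)

theorem comm_le_core (hK : CC K H) (e : L ≠ K) (hs : SQ H) : ⁅L, K⁆ ≤ pCoreOf 2 H :=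
  (quo_le_cent_iff (h.le.trans (le_normalizer_core _ _)) (hK.le.trans (le_normalizer_core _ _))).1
    (h.quo_cent hK e hs)

theorem dvd_quo (hp : p.Prime) (hp2 : p ≠ 2) (hd : p ∣ Nat.card L) :
    p ∣ Nat.card (BG.quo L (pCoreOf 2 H)) := by
  haveI := Fact.mk hp
  rwa [← rk_pos_iff, rk_quo_of_p' (h.le.trans (le_normalizer_core _ _))
    ((p'_of_pgroup (core_pgroup 2 H) hp2.symm).of_le inf_le_left), rk_pos_iff]

theorem rk_le_one (hK : CC K H) (e : L ≠ K) (hs : SQ H) [hp : Fact p.Prime] (hp2 : p ≠ 2)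
    (hd : p ∣ Nat.card K) : rk p (BG.quo L (pCoreOf 2 H)) ≤ 1 :=
  Nat.le_of_lt_succ ((rk_cent_lt hp2 hK.quo_core.perf (hK.dvd_quo hp.out hp2 hd) hK.quo_core.le
    h.quo_core.le (h.quo_cent hK e hs)).trans_le
      (hs.quo (le_normalizer_core _ _) (core_pgroup _ _) p hp.out hp2))

theorem three (hK : CC K H) (hJ : CC J H) (hs : SQ H) (hp : p.Prime) (hp2 : p ≠ 2) (h1 : p ∣ Nat.card L)
    (h2 : p ∣ Nat.card K) (h3 : p ∣ Nat.card J) : L = K ∨ L = J ∨ K = J := by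
  haveI := Fact.mk hp
  by_contra e
  push Not at e
  have h4 := rk_pos_iff.2 (h.dvd_quo hp hp2 h1)
  have h5 := rk_cent_lt hp2 hK.quo_core.perf (hK.dvd_quo hp hp2 h2) (le_inf hK.quo_core.le
    (hK.quo_cent hJ e.2.2 hs)) (le_inf h.quo_core.le (h.quo_cent hJ e.2.1 hs)) (h.quo_cent hK e.1 hs)
  have h6 := rk_cent_lt hp2 hJ.quo_core.perf (hJ.dvd_quo hp hp2 h3) hJ.quo_core.le inf_le_left inf_le_right
  have h7 := hs.quo (le_normalizer_core _ _) (core_pgroup _ _) p hp hp2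
  omega

theorem tri (hs : SQ H) {a b : G} (ha : a ∈ H) (hb : b ∈ H) : a ∈ 𝐍(L) ∨ b ∈ 𝐍(L) ∨ a⁻¹ * b ∈ 𝐍(L) := by
  obtain ⟨p, h1, h2, h3⟩ := exists_odd_dvd h.not_sol
  refine (h.three (h.conj_mem ha) (h.conj_mem hb) hs h1 h2 h3 (by rwa [Transfer.card_conj])
    (by rwa [Transfer.card_conj])).imp (fun e => norm_of_conj_eq e.symm) (.imp (fun e => norm_of_conj_eq e.symm)
      fun e => norm_of_conj_eq ?_)
  rw [← Transfer.conj_conj, ← e, Transfer.inv_conj_conj]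

theorem res_norm (hs : SQ H) : pResidualOf 2 H ≤ 𝐍(L) :=
  res_le_of_pow_mem fun g hg => ⟨1, by
    rcases h.tri hs hg (pow_mem hg (2 ^ 1)) with e | e | e
    exacts [pow_mem e _, e, pow_mem (by simpa [pow_two] using e) _]⟩

theorem perf_norm (hs : SQ H) (hP : ⁅P, P⁆ = P) (h1 : P ≤ H) : P ≤ 𝐍(L) :=
  (le_res_of_perfect hP h1).trans (h.res_norm hs)

theorem index_dvd (hs : SQ H) : 𝐍(L).relIndex H ∣ 2 := by
  by_cases e : H ≤ 𝐍(L)
  · rw [relIndex_eq_one.2 e]; exact one_dvd _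
  obtain ⟨a, ha, e⟩ := SetLike.not_le_iff_exists.1 e
  exact index_dvd_two_iff'.2 ⟨⟨a, ha⟩⁻¹, fun b => ((h.tri hs ha b.2).resolve_left e).symm⟩

theorem norm_ncl (hs : SQ H) (hT : Syl 2 T H) : H ≤ 𝐍(ncl L T) := by
  rw [← ncl_sup_of_norm (h.res_norm hs) (hT.le.trans (le_normalizer_res _ _)), sup_comm,
    res_sup_sylowIn hT.le hT.not_dvd']
  exact Loc.norm_ncl _ _

/-- a non-normal `𝒞`-component has cyclic Sylow subgroups for the odd primes -/
theorem rk_le_of_not_norm (hs : SQ H) (hn : ¬ H ≤ 𝐍(L)) [Fact p.Prime] (hp2 : p ≠ 2) :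
    rk p (BG.quo L (pCoreOf 2 H)) ≤ 1 := by
  obtain ⟨a, ha, e⟩ := SetLike.not_le_iff_exists.1 hn
  by_cases hd : p ∣ Nat.card L
  · exact h.rk_le_one (h.conj_mem ha) (fun e1 => e (norm_of_conj_eq e1.symm)) hs hp2
      (by rwa [Transfer.card_conj])
  · exact (rk_eq_zero_iff.2 fun e => hd (e.trans ((card_quo_dvd _ _)))).le.trans zero_le_one

theorem simple (h0 : pCoreOf 2 H = ⊥) (hr : ∀ p : ℕ, p.Prime → p ≠ 2 → rk p L ≤ 1) :
    IsSimpleGroup L ∧ ¬ IsMulCommutative L := by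
  have h1 := core_eq_bot_of_subnormal h.sn h0
  have h2 : L ≤ 𝐂(𝐅(L)) := le_cent_Fitting h1 fun p hp h2 =>
    haveI := Fact.mk hp
    h.perf.ge.trans (der1_cent_cyclic (cyclic_of_rk_le_one h2 (pcore_pgroup p L)
      ((rk_mono (pcore_le _ _) p).trans (hr p hp h2))) (pcore_nml _ _).norm)
  have h3 : 𝐒(L) ≤ 𝐅(L) := le_Fitting_of_rad le_rfl ((rad_nml L).le.trans h2)
  have h4 : 𝐙(L) = ⊥ := by_contra fun e => by
    obtain ⟨X, h4, h5⟩ := exists_prime_le e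
    haveI := Fact.mk h5
    have h6 : IsPGroup (Nat.card X) X := IsPGroup.of_card (pow_one _).symm
    rcases eq_or_ne (Nat.card X) 2 with e1 | e1
    · exact ne_bot_of_prime h5 (eq_bot_mono h1 (le_core (h4.trans inf_le_left)
        (norm_of_cent (cent_symm (h4.trans inf_le_right))) (e1 ▸ h6)))
    · have h7 := rk_cent_lt e1 h.perf (card_dvd (h4.trans inf_le_left)) le_rfl (h4.trans inf_le_left)
        (h4.trans inf_le_right)
      have h8 := hr _ h5 e1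
      have h9 := (rk_pos_iff (p := Nat.card X) (H := X)).2 dvd_rfl
      omega
  have h5 := (h.cmp (h3.trans (cent_symm h2))).qs
  refine ⟨isSimpleGroup_of_isQuasisimple h5 ?_, isQuasisimple_not_isMulCommutative h5⟩
  rwa [← map_subtype_center, map_subtype_eq_bot_iff] at h4

end CC

end Cfsg.Lib.QT
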