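import Cfsg.Agent.Lib.QT.Cyc
import Cfsg.Agent.Lib.KList.Col
import Cfsg.Prelude.Def_Classification2

/-! Presented sporadic groups: either the presentation collapses to an abelian group or the
Sylow 3-subgroups are non-cyclic. -/

namespace Cfsg.Lib.QT
open Subgroup Cfsg.Spor Cfsg.Lib.KList

section
variable {α : Type} [DecidableEq α] (edges : List (α × ℕ × α)) {extra : List (FreeGroup α)}

/-- Checks that identifying the nodes of `S` identifies, one after the other, all nodes. -/
def colOK : List α → List α → Bool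
  | S, [] => (coxNodes edges).all (· ∈ S)
  | S, y :: l => (S.any fun x => S.any fun x' => coxLabel edges x y = 3 ∧ coxLabel edges x' y = 2)
      && colOK (y :: S) l

variable {edges} (hn : ∀ x, x ∈ coxNodes edges)
include hn

theorem col_comm (z : CoxPresented α edges extra) : ∀ (l S : List α), colOK edges S l = true →
    (∀ x ∈ S, PresentedGroup.of x = z) → IsMulCommutative (CoxPresented α edges extra)
  | [], S, h, e => comm_of_eq z fun x => by
      simp only [colOK, List.all_eq_true, decide_eq_true_eq] at h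
      rw [e x (h x (hn x))]; exact mem_zpowers z
  | y :: l, S, h, e => by
      simp only [colOK, Bool.and_eq_true, List.any_eq_true, decide_eq_true_eq] at h
      obtain ⟨⟨x, hx, x', hx', h1, h2⟩, h3⟩ := h
      refine col_comm z l (y :: S) h3 (List.forall_mem_cons.2 ⟨?_, e⟩)
      exact (cox_step ((e x hx).trans (e x' hx').symm) ⟨⟨hn _, hn _, hn _⟩, h1, h2⟩).symm.trans
        (e x hx)

theorem cox_inv (x : α) :
    (PresentedGroup.of x * PresentedGroup.of x : CoxPresented α edges extra) = 1 := by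
  simpa using cox_rel (extra := extra) x x (hn x) (hn x) (n := 1) (by simp [coxLabel])

theorem cox_br (h : ¬ IsMulCommutative (CoxPresented α edges extra)) {a b : α} {l : List α}
    (h1 : coxLabel edges a b = 3) (h2 : colOK edges [a, b] l = true) :
    Br (PresentedGroup.of a : CoxPresented α edges extra) (PresentedGroup.of b) :=
  br_of_invol (cox_inv hn a) (cox_inv hn b) (cox_rel a b (hn a) (hn b) h1) fun e =>
    h (col_comm hn (PresentedGroup.of b) l _ h2 (by simp [e]))

theorem cox_nc (h : ¬ IsMulCommutative (CoxPresented α edges extra)) {a b c d : α}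
    (l l' : List α) (h1 : coxLabel edges a b = 3 ∧ coxLabel edges c d = 3 ∧
      coxLabel edges a c = 2 ∧ coxLabel edges a d = 2 ∧ coxLabel edges b c = 2 ∧
      coxLabel edges b d = 2 ∧ colOK edges [a, b] l = true ∧ colOK edges [c, d] l' = true)
    {K : Subgroup (CoxPresented α edges extra)}
    (hx : (PresentedGroup.of a * PresentedGroup.of b) ^ 2 ∈ K)
    (hy : (PresentedGroup.of c * PresentedGroup.of d) ^ 2 ∈ K) :
    NC 3 (K ⊓ commutator (CoxPresented α edges extra) :) := by
  obtain ⟨h1, h2, h3, h4, h5, h6, h7, h8⟩ := h1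
  have k := cox_br hn h h1 h7
  have k' := cox_br hn h h2 h8
  exact k.nc k' (cox_commute ⟨⟨hn _, hn _⟩, h3⟩) (cox_commute ⟨⟨hn _, hn _⟩, h4⟩)
    (cox_commute ⟨⟨hn _, hn _⟩, h5⟩) (cox_commute ⟨⟨hn _, hn _⟩, h6⟩)
    ⟨hx, k.mem_comm (cox_inv hn a)⟩ ⟨hy, k'.mem_comm (cox_inv hn c)⟩

end

theorem bad_Fi22 (h : ¬ IsMulCommutative Fi22) : Bad Fi22 :=
  (cox_nc (fun x => by cases x <;> decide) h (a := .a) (b := .b) (c := .e) (d := .f)
    [.c, .d, .e, .f, .g, .h, .i] [.g, .d, .c, .b, .a, .h, .i] (by decide +kernel)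
    (mem_top _) (mem_top _)).bad3.sub

theorem bad_Fi23 (h : ¬ IsMulCommutative Fi23) : Bad Fi23 :=
  (cox_nc (fun x => by cases x <;> decide) h (a := .a) (b := .b) (c := .e) (d := .f)
    [.c, .d, .e, .f, .g, .j, .h, .i] [.g, .j, .d, .c, .b, .a, .h, .i] (by decide +kernel)
    (mem_top _) (mem_top _)).bad3.sub

theorem bad_Fi24 (h : ¬ IsMulCommutative Fi24') : Bad Fi24' :=
  (cox_nc (fun x => by cases x <;> decide) (fun _ => h inferInstance)
    (a := .a) (b := .b) (c := .e) (d := .f) [.k, .l, .c, .d, .e, .f, .g, .j, .h, .i]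
    [.g, .j, .d, .c, .b, .a, .k, .l, .h, .i] (by decide +kernel)
    (mem_top _) (mem_top _)).bad3.mono inf_le_right

theorem bad_B (h : ¬ IsMulCommutative BabyMonster) : Bad BabyMonster :=
  (cox_nc (fun x => by cases x <;> decide) h (a := .t1) (b := .t2) (c := .t4) (d := .t5)
    [.t3, .t4, .t5, .t6, .t7, .t8, .t9, .t10, .t11] [.t3, .t2, .t1, .t6, .t7, .t8, .t9, .t10, .t11]
    (by decide +kernel) (mem_top _) (mem_top _)).bad3.sub

theorem bad_M (h : ¬ IsMulCommutative Monster) : Bad Monster := by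
  have C : ∀ x y : Bimonster.Gen, (x ∈ coxNodes Bimonster.edges ∧ y ∈ coxNodes Bimonster.edges) ∧
      coxLabel Bimonster.edges x y = 2 →
      Commute (PresentedGroup.of x : Spor.Bimonster) (PresentedGroup.of y) :=
    fun x y hxy => cox_commute hxy
  refine (cox_nc (fun x => by cases x <;> decide) (fun _ => h inferInstance)
    (a := .c1) (b := .d1) (c := .c2) (d := .d2)
    [.e1, .f1, .b1, .a, .b2, .c2, .d2, .e2, .f2, .b3, .c3, .d3, .e3, .f3]
    [.e2, .f2, .b2, .a, .b1, .c1, .d1, .e1, .f1, .b3, .c3, .d3, .e3, .f3]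
    (by decide +kernel) ?_ ?_).bad3 <;>
    exact pow_mem (mem_centralizer_singleton_iff.2
      ((C _ _ (by decide)).mul_left (C _ _ (by decide))).eq) 2

theorem comm_of_sq {G : Type*} [Group G] {x y : G} (hx : x ^ 2 = 1) (hy : y ^ 2 = 1)
    (h : (x * y) ^ 2 = 1) : Commute x y := by
  rw [sq] at hx hy h
  rw [Commute, SemiconjBy, eq_inv_of_mul_eq_one_left h, mul_inv_rev,
    ← eq_inv_of_mul_eq_one_left hx, ← eq_inv_of_mul_eq_one_left hy]

theorem th_nc {G : Type*} [Group G] (f : FreeGroup Th.Gen →* G) (hf : ∀ r ∈ Th.extra, f r = 1)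
    (h : ¬ ∀ x, f (.of x) = 1) : BP G := by
  simp only [Th.extra, List.forall_mem_cons, map_pow, map_mul, map_inv] at hf
  obtain ⟨h0, h1, h2, h3, h4, h5, h6, h7, h8, h9, h10, h11, h12, -, h14, -, -, -, h18, -, h20,
    -, -, -, -, -, -, h27, -, -, -, -, h32, -, h34, -, h36, -⟩ := hf
  rw [mul_inv_eq_one] at h10
  have ha : f Th.a ≠ 1 := fun ha => h fun x => by
    rw [ha, one_mul] at h5
    have hb := eq_one_of_cop h1 h5 (by norm_num)
    rw [hb, one_mul] at h7
    have hc := eq_one_of_cop h2 h7 (by norm_num)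
    rw [ha, hc] at h27 h32 h36
    have he : f Th.e = 1 := by simpa [hb] using h32
    rw [he, mul_one] at h12
    have hd := eq_one_of_cop h3 h12 (by norm_num)
    rw [hd, mul_one] at h18
    have hs := eq_one_of_cop h14 h18 (by norm_num)
    rw [hs] at h36
    have hu : f Th.u = 1 :=
      eq_one_of_cop (m := 2) (n := 3) (by simpa using h27) (by simpa using h36) (by norm_num)
    rw [hu] at h34
    have ht := eq_one_of_cop (n := 2) h20 (by simpa [sq] using h34) (by norm_num)
    cases x
    exacts [ha, hb, hc, hd, he, hs, ht, hu]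
  have i : ∀ {x : G}, x ^ 2 = 1 → x⁻¹ = x := fun hx =>
    inv_eq_of_mul_eq_one_left (by rwa [← sq])
  have ad : Commute (f Th.a) (f Th.d) := by
    have e : f Th.d * f Th.a * (f Th.d)⁻¹ = (f Th.a)⁻¹ := by
      rw [h10, ← conj_pow, ← inv_pow, mul_inv_rev, i h2, mul_assoc, mul_inv_cancel_right, i h3]
    rw [i h0, mul_inv_eq_iff_eq_mul] at e
    exact e.symm
  have ac : Commute (f Th.a) (f Th.c) := by
    have : Commute (f Th.a) (f Th.c * f Th.d) := by rw [h10]; exact Commute.pow_self _ _
    simpa using this.mul_right ad.inv_right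
  refine ⟨_, _, _, _, br_of_invol (by rwa [← sq]) (by rwa [← sq]) h5 fun e => ha ?_,
    br_of_invol (by rwa [← sq]) (by rwa [← sq]) h12 fun e => ha ?_, ad, comm_of_sq h0 h4 h6,
    comm_of_sq h1 h3 h8, comm_of_sq h1 h4 h9⟩
  · have bc : f Th.b = f Th.c := eq_of_three_two (by rwa [pow_one, ← sq]) h7 (by
      rw [← e, ac.mul_pow, h0, h2, one_mul])
    rw [h10, ← bc, show 4 = 2 * 2 from rfl, pow_mul, h8, one_pow]
  · rw [h10, e, show 4 = 2 * 2 from rfl, pow_mul, h11, one_pow]

theorem bad_Th (h : ¬ IsMulCommutative Th) : Bad Th :=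
  (th_nc _ (fun _ => ext_rel) fun k => h (comm_of_eq 1 fun x => by
    rw [show PresentedGroup.of x = 1 from k x]; exact one_mem _)).bad

end Cfsg.Lib.QT
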