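import Cfsg.Agent.Lib.QT.Base
import Cfsg.Agent.Lib.CharDeg.SL2Norm
import Cfsg.Agent.Lib.BG.T01_Cyclic
import Cfsg.Agent.Lib.BG.T04_PGroup

/-! # Groups acting on `p`-groups of rank at most two -/

set_option autoImplicit false
set_option linter.unusedSectionVars false

namespace Cfsg.Lib.QT

open Subgroup Cfsg.Lib.BG Cfsg.Lib.Core Cfsg.Lib.Loc Cfsg.Lib.PGroup
open scoped Cfsg.Lib.Transfer commutatorElement MatrixGroups

variable {G : Type*} [Group G] [Finite G] {A K L M P Q : Subgroup G} {p q : ℕ}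

/-- what is used about `GL₂(p)` -/
structure T2 (Γ : Type*) [Group Γ] : Prop where
  cyc : ∀ q : ℕ, q.Prime → q ≠ 2 → ∀ Q ≤ _root_.commutator Γ, IsPGroup q Q → IsCyclic Q
  ab : ∀ x ∈ _root_.commutator Γ, x ≠ 1 → Odd (orderOf x) → IsMulCommutative ↥(_root_.commutator Γ ⊓ 𝐂[x])

theorem sl_cyc [hp : Fact p.Prime] [hq : Fact q.Prime] (hp2 : p ≠ 2) (hq2 : q ≠ 2)
    {Q : Subgroup SL(2, ZMod p)} (hQ : IsPGroup q Q) : IsCyclic Q := by
  rcases eq_or_ne q p with rfl | e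
  · obtain ⟨x, hx⟩ := PSL2.exists_le_unipS_of_isPGroup q hQ
    exact cyclic_of_le (cyclic_of_prime (by rw [PSL2.card_unipS, Nat.card_zmod]; exact hq.out)) hx
  rcases eq_or_ne Q ⊥ with rfl | h0
  · infer_instance
  obtain ⟨s, hs, h1⟩ := exists_ne_one (center_ne_bot_of_nil (pgroup_nil hQ) h0)
  obtain ⟨k, hk⟩ := isPGroup_subgroup_iff.1 hQ s hs.1
  have h2 : (2 : ZMod p) ≠ 0 := fun h => hp2 ((Nat.prime_dvd_prime_iff_eq hp.out Nat.prime_two).1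
    ((ZMod.natCast_eq_zero_iff 2 p).1 h))
  refine cyclic_of_le (GLTwo.reg_of_pow_ne h2 p (s := s) fun h => h1 ?_).centralizer_cases.1
    (le_cent1_iff.2 hs.2)
  exact orderOf_eq_one_iff.1 (Nat.eq_one_of_dvd_coprimes ((((Nat.coprime_primes hq.out Nat.prime_two).2
    hq2).mul_right ((Nat.coprime_primes hq.out hp.out).2 e)).pow_left k)
      (orderOf_dvd_of_pow_eq_one hk) (orderOf_dvd_of_pow_eq_one h))

theorem sl_ab {F : Type*} [Field F] {s : SL(2, F)} (h1 : s ≠ 1) (h2 : Odd (orderOf s)) :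
    IsMulCommutative ↥𝐂[s] := by
  refine abelian_iff.2 (le_cent_iff.2 fun t ht u hu => GLTwo.comm_of_mem_centralizer
    (fun ⟨a, b, c⟩ => h1 ?_) ht hu)
  have d := PSL2.sl_det s
  have e : s ^ 2 = 1 := by
    rw [pow_two]
    apply PSL2.sl_ext <;> simp [Matrix.mul_apply, a, b, ← c] <;> simpa [a, ← c] using d
  exact orderOf_eq_one_iff.1 (Nat.eq_one_of_dvd_coprimes (Nat.coprime_two_left.2 h2)
    (orderOf_dvd_of_pow_eq_one e) dvd_rfl)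

theorem t2_GL [Fact p.Prime] (hp2 : p ≠ 2) {n : ℕ} (hn : n ≤ 2) : T2 (GL (Fin n) (ZMod p)) := by
  rcases hn.lt_or_eq with h | rfl
  · have e : _root_.commutator (GL (Fin n) (ZMod p)) = ⊥ :=
      comm_eq_bot_iff.2 (le_cent_iff.2 fun a _ b _ => GL_comm_of_le_one (by omega) a b)
    exact ⟨fun q _ _ Q h _ => cyclic_of_le inferInstance (e ▸ h), fun x h h1 => absurd (e ▸ h : x ∈ ⊥) h1⟩
  have hd : ∀ x ∈ _root_.commutator (GL (Fin 2) (ZMod p)), x.1.det = 1 := fun x hx =>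
    congrArg Units.val (Abelianization.commutator_subset_ker Matrix.GeneralLinearGroup.det hx)
  let f : _root_.commutator (GL (Fin 2) (ZMod p)) →* SL(2, ZMod p) :=
    MonoidHom.mk' (fun x => ⟨x.1.1, hd _ x.2⟩) fun _ _ => rfl
  have hf : Function.Injective f := fun a b e => Subtype.ext (Units.ext (congrArg Subtype.val e))
  refine ⟨fun q hq h2 Q h1 hQ => ?_, fun x hx h1 h2 => ?_⟩
  · haveI := Fact.mk hq
    exact (((Q.subgroupOf _).equivMapOfInjective f hf).symm.trans (subgroupOfEquivOfLe h1)).isCyclic.1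
      (sl_cyc hp2 h2 (hQ.comap_subtype.map f))
  · have := sl_ab (s := f ⟨x, hx⟩) (fun e => h1 (congrArg Subtype.val (hf (e.trans f.map_one.symm))))
      (by rwa [orderOf_injective f hf, ← orderOf_coe])
    refine abelian_iff.2 (le_cent_iff.2 fun a ha b hb => congrArg Subtype.val (hf (a₁ := ⟨a, ha.1⟩ * ⟨b, hb.1⟩)
      (a₂ := ⟨b, hb.1⟩ * ⟨a, ha.1⟩) ?_))
    have h3 : ∀ a (ha : a ∈ _ ⊓ 𝐂[x]), f ⟨a, ha.1⟩ ∈ 𝐂[f ⟨x, hx⟩] := fun a ha => mem_cent1.2 (by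
      rw [← map_mul, ← map_mul]; exact congrArg f (Subtype.ext (mem_cent1.1 ha.2)))
    rw [map_mul, map_mul]
    exact le_cent_iff.1 (abelian_cent this) _ (h3 a ha) _ (h3 b hb)

theorem exists_odd_dvd (h : ¬ Group.IsSolvable L) : ∃ q : ℕ, q.Prime ∧ q ≠ 2 ∧ q ∣ Nat.card L := by
  by_contra e
  push Not at e
  exact h (pgroup_sol (PiGrp.pgroup (p := 2) fun q h1 h2 => by_contra fun h3 => e q h1 h3 h2))

theorem T2.le (h : T2 G) (hL : ⁅L, L⁆ = L) (hM : ⁅M, M⁆ = M) (h1 : M ≤ 𝐍(L)) (h2 : L ≠ ⊥) : M ≤ L := by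
  obtain ⟨q, hq, h3, h4⟩ := exists_odd_dvd fun e => h2 (perf_eq_bot hL e le_rfl)
  haveI := Fact.mk hq
  obtain ⟨R, hR⟩ := Syl.exists q L
  obtain ⟨x, hx, h5⟩ := exists_ne_one (hR.ne_bot' h4)
  have d : ∀ {X : Subgroup G}, ⁅X, X⁆ ≤ _root_.commutator G := fun {_} => der_mono le_top
  have e := hR.frattini ⟨le_sup_left, sup_le_norm_left h1⟩
  refine perf_le hM (le_sup_right.trans e.ge) (inf_le_left.trans (sup_le_norm_left h1))
    (isSolvable_of_commutator_le (le_inf d ((der1_cent_cyclic (h.cyc q hq h3 R (hR.le.trans (hL.ge.trans d))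
      hR.pgroup) inf_le_right).trans (cent_le_cent1 hx))) (abelian_sol (h.ab x (d (hL.ge (hR.le hx))) h5 ?_)))
  obtain ⟨k, hk⟩ := isPGroup_subgroup_iff.1 hR.pgroup x hx
  exact ((hq.odd_of_ne_two h3).pow).of_dvd_nat (orderOf_dvd_of_pow_eq_one hk)

variable [hp : Fact p.Prime]

theorem exists_rep (hp2 : p ≠ 2) (hP : IsPGroup p P) (hr : rk p P ≤ 2) (hA : A ≤ 𝐍(P)) :
    ∃ (Γ : Type) (_ : Group Γ) (_ : Finite Γ) (ρ : A →* Γ), T2 Γ ∧
      pResidualOf p (ρ.ker.map A.subtype) ≤ 𝐂(P) := by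
  rcases eq_or_ne P ⊥ with rfl | h0
  · exact ⟨GL (Fin 0) (ZMod p), _, inferInstance, 1, t2_GL hp2 (by omega), by simp⟩
  obtain ⟨H, h1, h2, -, -, h3, h4⟩ := critical_odd hp2 hP h0
  have h5 : ∀ x ∈ H, x ^ p ∈ ⁅H, H⁆ := fun x hx => (h3 x hx).symm ▸ one_mem _
  have hH := hA.trans h2
  obtain ⟨n, hn⟩ := exists_section_relIndex_eq_pow h5
  have hr' := (rk_mono h1 p).trans hr
  have hn2 : n ≤ 2 := by
    have e := Core.card_mul_relIndex (der_le H)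
    rcases eq_or_ne ⁅H, H⁆ ⊥ with e1 | e1
    · rw [hn, e1, card_bot, one_mul] at e
      exact (Elem.le_rk ⟨le_rfl, ⟨abelian_iff_der.2 e1, h3⟩, e.symm⟩).trans hr'
    · have h6 := Nat.le_of_dvd Nat.card_pos (pgroup_dvd_card (pgroup_of_le hP ((der_le H).trans h1)) e1)
      have h7 := (Nat.mul_le_mul_right _ h6).trans (e.le.trans (rank2_exponent_p_p3group hr' h3))
      rw [hn, ← pow_succ', Nat.pow_le_pow_iff_right hp.out.one_lt] at h7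
      omega
  obtain ⟨ρ, hρ⟩ := exists_section_rep (der_le H) le_rfl h5 (norm_der hH) hH hn
  refine ⟨_, _, inferInstance, ρ, t2_GL hp2 hn2, res_le_iff.2 fun g ⟨a, ha, e⟩ hg => ?_⟩
  have h6 : zpowers g ≤ A := zpowers_le.2 (e ▸ a.2)
  have h7 : (Nat.card (zpowers g)).Coprime p := by rwa [Nat.card_zpowers]
  refine h4 _ (h6.trans hA) h7 (coprime_cent_Phi (h6.trans hH) h7 (pgroup_of_le hP h1)
    ((commutator_le_of_le_commStab (zpowers_le.2 ?_)).trans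
      (commutator_le_map_subtype_frattini (pgroup_of_le hP h1)))) (mem_zpowers g)
  rw [hρ] at ha
  exact e ▸ ha

theorem cent_or (hp2 : p ≠ 2) (hP : IsPGroup p P) (hr : rk p P ≤ 2) (hL : ⁅L, L⁆ = L) (hM : ⁅M, M⁆ = M)
    (h1 : L ≤ 𝐍(P)) (h2 : M ≤ 𝐍(P)) (h3 : M ≤ 𝐍(L)) (h4 : Group.IsSolvable ↥⁅L, M⁆) :
    L ≤ 𝐂(P) ∨ M ≤ 𝐂(P) := by
  obtain ⟨Γ, _, _, ρ, h5, h6⟩ := exists_rep hp2 hP hr le_rfl
  have e : ∀ {X}, ⁅X, X⁆ = X → X ≤ 𝐍(P) → (X.subgroupOf _).map ρ = ⊥ → X ≤ 𝐂(P) := fun h h' e =>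
    (le_res_of_perfect h ((le_map_subtype_iff h').2 ((Subgroup.map_eq_bot_iff _).1 e))).trans h6
  have e' : ∀ {X}, ⁅X, X⁆ = X → X ≤ 𝐍(P) → ⁅(X.subgroupOf _).map ρ, (X.subgroupOf _).map ρ⁆ =
      (X.subgroupOf _).map ρ := fun h h' => by rw [← map_commutator, ← subOf_comm h' h', h]
  refine (eq_or_ne _ ⊥).imp (e hL h1) fun h => e hM h2 (perf_eq_bot (e' hM h2)
    (sol_map ρ (isSolvable_subgroupOf 𝐍(P) h4)) ((e' hM h2).ge.trans ?_))
  rw [subOf_comm h1 h2, map_commutator]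
  exact commutator_mono (h5.le (e' hL h1) (e' hM h2) (map_norm ρ (subOf_le_norm h3 _)) h) le_rfl

theorem exists_ker (hp2 : p ≠ 2) (hP : IsPGroup p P) (hr : rk p P ≤ 2) (hA : A ≤ 𝐍(P)) :
    ∃ K, Nml K A ∧ pResidualOf p K ≤ 𝐂(P) ∧ ∀ q : ℕ, q.Prime → q ≠ 2 → ∀ Q ≤ ⁅A, A⁆, IsPGroup q Q →
      ∃ x ∈ Q, Q ≤ K ⊔ zpowers x := by
  obtain ⟨Γ, _, _, ρ, h5, h6⟩ := exists_rep hp2 hP hr hA
  refine ⟨_, Nml.of_normal A ρ.ker, h6, fun q hq h2 Q h1 hQ => ?_⟩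
  obtain ⟨_, ⟨x, hx, rfl⟩, e⟩ := cyclic_iff.1 (h5.cyc q hq h2 ((Q.subgroupOf A).map ρ) ((map_mono
    ((subgroupOf_mono A h1).trans (subOf_comm le_rfl le_rfl).le)).trans
      ((map_commutator _ _ _).le.trans (der_mono le_top))) (hQ.comap_subtype.map ρ))
  refine ⟨x, hx, fun y hy => ?_⟩
  obtain ⟨k, hk⟩ := mem_zpowers_iff.1 (e.ge (mem_map_of_mem ρ (x := ⟨y, der_le A (h1 hy)⟩) hy))
  have : (⟨y, der_le A (h1 hy)⟩ * (x ^ k)⁻¹ : A) ∈ ρ.ker := by simp [MonoidHom.mem_ker, hk]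
  simpa using mul_mem (mem_sup_left (mem_map_of_mem A.subtype this))
    (mem_sup_right (zpow_mem (mem_zpowers (x : G)) k))

end Cfsg.Lib.QT
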