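import Cfsg.Agent.Lib.QT.Comm
import Cfsg.Agent.Lib.Coprime.FT

/-! # Members of `ℒ(G, T)` lie in `𝒞`-components of overgroups; nonsolvable uniqueness groups -/

set_option autoImplicit false
set_option linter.unusedSectionVars false

namespace Cfsg.Lib.QT

open Subgroup Cfsg.Lib.BG Cfsg.Lib.Core Cfsg.Lib.Loc Cfsg.Lib.KS
open scoped Cfsg.Lib.Transfer commutatorElement

variable {G : Type*} [Group G] [Finite G] {B H K L M P S T : Subgroup G}

theorem perf_eq_bot_of_syl (hP : ⁅P, P⁆ = P) (hS : Syl 2 S M) (h1 : P ≤ M) (h2 : Group.IsSolvable ↥⁅S, P⁆) :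
    P = ⊥ := by
  have h3 : P ≤ 𝐍(⁅S, P⁆ ⊔ S) := norm_of_comm_le (comm_sup_le (le_norm_of_le le_sup_left)
    (le_norm_of_le le_sup_right) ((comm_le_left (right_norm_comm _ _)).trans le_sup_left) le_sup_left)
  refine perf_eq_bot hP (sup_comm S _ ▸ isSolvable_sup (left_norm_comm S P) (pgroup_sol hS.pgroup) h2)
    ((quo_eq_bot_iff h3).1 (perf_eq_bot (by rw [← quo_comm h3 h3, hP])
      (Coprime.isSolvable_of_not_two_dvd fun e => ?_) le_rfl))
  rw [card_quo h3] at e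
  exact Syl.not_dvd' (hS.of_le le_sup_right (sup_le h1 hS.le)) (e.trans ((relIndex_dvd_of_norm le_sup_left
    (sup_le h3 (le_norm_of_le le_sup_right))).trans (relIndex_dvd_left le_sup_right _)))

theorem le_CE' (hs : SQ H) (ho : OS H) (hP : ⁅P, P⁆ = P) (h : P ≤ H) : P ≤ CE H :=
  le_CE ho hP h fun _ hL => hL.perf_norm hs hP h

theorem exists_cc_ge (hs : SQ H) (ho : OS H) (hT : Syl 2 T H) (hB : CC B (B ⊔ T)) (h : B ≤ H) :
    ∃ K, CC K H ∧ B ≤ K := by
  by_contra e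
  push Not at e
  have h1 := le_CE' hs ho hB.perf h
  have hR := (rad_nml H).norm
  refine hB.not_comm (rad_sol H) (le_relCent.1 (h1.trans (CE_le_iff.2 fun K hK =>
    le_relCent.2 ⟨hK.norm_rad, ?_⟩))).2
  have h2 := hK.sn.inf_of_le (sup_le h hT.le)
  have h3 := (hB.le_or h2).resolve_left fun e1 => e K hK (e1.trans inf_le_left)
  have n1 := le_normalizer_relCent (hK.perf_norm hs hB.perf h) (h.trans hR)
  have n2 := le_normalizer_relCent (le_norm K) (hK.le.trans hR)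
  have n3 : T ⊓ K ≤ _ := inf_le_right.trans n2
  rw [commutator_comm]
  refine (le_relCent.1 ((quo_eq_bot_iff n1).1 (perf_eq_bot_of_syl (by rw [← quo_comm n1 n1, hB.perf])
    ((Syl.inf_subnormal hT hK.sn).quo n2) ((quo_le_quo_iff n1 n2).2 (h1.trans (CE_le_iff.2 fun J hJ => ?_)))
    ?_))).2
  · rcases eq_or_ne J K with rfl | e1
    exacts [le_sup_right, (le_relCent.2 ⟨hJ.norm_rad, hJ.comm_le hK e1⟩).trans le_sup_left]
  · rw [← quo_comm n3 n1, commutator_comm]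
    exact sol_quo (sol_of_le (rad_sol _) ((commutator_mono le_rfl (le_inf inf_le_right
      (inf_le_left.trans le_sup_right))).trans h3)) _

theorem cc_of_max (hQ : IsQTKE G) (hT : Syl 2 T ⊤) (hL : L ∈ calLMax T) (h0 : pCoreOf 2 H ≠ ⊥)
    (h1 : L ⊔ T ≤ H) (ho : OS H) : CC L H := by
  have h2 := le_sup_right.trans h1
  obtain ⟨K, h3, h4⟩ := exists_cc_ge (sq hQ h0) ho (hT.of_le h2 le_top) ((calL_iff hT).1 hL.1).1
    (le_sup_left.trans h1)
  exact hL.2 K (h3.calL hT h2 h0) h4 ▸ h3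

theorem uniq_nonsol (hQ : IsQTKE G) (hT : Syl 2 T ⊤) (hL : L ∈ calLMax T)
    (ho : ∀ H : Subgroup G, pCoreOf 2 H ≠ ⊥ → OS H) :
    (∀ H ∈ calHOver (L ⊔ T), L.subgroupOf H ∈ calC H) ∧ generalizedFittingSubgroup L = pCore 2 L ∧
      maxTwoLocalsContaining (L ⊔ T) = {𝐍(conjClosure L T)} := by
  obtain ⟨h1, h2⟩ := (calL_iff hT).1 hL.1
  have h3 := chp hQ hT h2 le_sup_right
  have h4 : ∀ H, pCoreOf 2 H ≠ ⊥ → L ⊔ T ≤ H → H ≤ 𝐍(ncl L T) := fun H h4 h5 =>
    (cc_of_max hQ hT hL h4 h5 (ho H h4)).norm_ncl (sq hQ h4) (hT.of_le (le_sup_right.trans h5) le_top)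
  have h5 := h4 _ h2 le_rfl
  exact ⟨fun H h => (cc_iff (le_sup_left.trans h.2)).2
      (cc_of_max hQ hT hL (calH_iff.1 h.1) h.2 (ho H (calH_iff.1 h.1))),
    isChP_iff_genFitting.1 (h3.subnormal h1.sn), uniq_max h4 h5 ((h3.of_le_normalizer
      (ncl_le le_sup_left (le_norm_of_le le_sup_right)) h5).core_ne_bot (ne_bot_mono h1.ne (le_ncl _ _)))⟩

end Cfsg.Lib.QT
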