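import Cfsg.Agent.Lib.QT.Uniq

/-! # The members of `Ξ(G, T)` -/

set_option autoImplicit false
set_option linter.unusedSectionVars false

namespace Cfsg.Lib.QT

open Subgroup Cfsg.Lib.BG Cfsg.Lib.Core Cfsg.Lib.Loc Cfsg.Lib.KS
open Cfsg.Lib.Comp hiding core_top comm_sup_le' ncl conj_le_ncl le_ncl ncl_le ncl_mono norm_ncl ncl_nml
open scoped Cfsg.Lib.Transfer commutatorElement

variable {G : Type*} [Group G] [Finite G] {F H K N P T U X Y : Subgroup G} {p : ℕ} {t x : G}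

/-- what is used of `X ∈ Ξ(G, T)` and `F = O_{2,Φ}(X)` -/
structure XI (p : ℕ) (T X F : Subgroup G) : Prop where
  odd : p ≠ 2
  res : pResidualOf 2 X = X
  norm : T ≤ 𝐍(X)
  nF : T ≤ 𝐍(F)
  le : F ≤ X
  der : ⁅X, X⁆ ≤ F
  dich : ∀ Y ≤ X, X ≤ 𝐍(Y) → T ≤ 𝐍(Y) → X ≤ Y ∨ Y ≤ F
  ncyc : ∀ x ∈ X, ¬ X ≤ F ⊔ zpowers x
  expo : ∀ x ∈ X, ∃ k, (x ^ p) ^ 2 ^ k = 1
  small : ¬ p ^ 2 ∣ Nat.card F

theorem card_frattini_le [hp : Fact p.Prime] (h : Nat.card G ∣ p ^ 3) (hc : ¬ IsCyclic G) :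
    Nat.card (frattini G) ≤ p := by
  obtain ⟨k, -, hk⟩ := (Nat.dvd_prime_pow hp.out).1 h
  have h1 := Nat.mul_le_mul_left (Nat.card (frattini G)) (PGroup.sq_le_index_frattini (.of_card hk) hc)
  rw [card_mul_index] at h1
  exact Nat.le_of_mul_le_mul_right (h1.trans ((Nat.le_of_dvd (pow_pos hp.out.pos _) h).trans_eq
    (pow_succ' _ _))) (pow_pos hp.out.pos _)

theorem le_cent_of_card_le [hp : Fact p.Prime] (hP : IsPGroup p P) (hN : Nml N P) (h : Nat.card N ≤ p) :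
    N ≤ 𝐂(P) := by
  rcases eq_or_ne N ⊥ with rfl | h0
  · exact bot_le
  have e := le_antisymm h (Nat.le_of_dvd Nat.card_pos (pgroup_dvd_card (pgroup_of_le hP hN.le) h0))
  exact le_of_prime_of_inf_ne_bot (e ▸ hp.out) (nil_meet_center (pgroup_nil hP) hN.le hN.norm h0)

theorem xi_of_mem (h : X ∈ Xi T) : ∃ p F, p.Prime ∧ XI p T X F := by
  obtain ⟨h1, h2, -, ⟨p, hp, hp2, h3⟩, h4⟩ := h
  haveI := Fact.mk hp
  rw [odd_eq] at h1
  set f := QuotientGroup.mk' (pCore 2 X)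
  have hf : Function.Surjective f := QuotientGroup.mk'_surjective _
  have hd : Nat.card (X ⧸ pCore 2 X) ∣ p ^ 3 :=
    h3.elim (fun h => h.1 ▸ pow_dvd_pow p (by omega)) fun h => h.1.dvd
  have hP : IsPGroup p (X ⧸ pCore 2 X) := h3.elim (fun h => .of_card h.1) fun h => .of_card h.1
  have hc : ¬ IsCyclic (X ⧸ pCore 2 X) := fun hc => by
    rcases h3 with ⟨h5, -, h6⟩ | ⟨-, h5⟩
    · obtain ⟨g, hg⟩ := hc.exists_ofOrder_eq_natCard
      have := Nat.le_of_dvd hp.pos (h5 ▸ hg ▸ orderOf_dvd_of_pow_eq_one (h6 g))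
      nlinarith [hp.two_le]
    · exact h5 hc.isMulCommutative
  have hn : ∀ Z : Subgroup (X ⧸ pCore 2 X), Z.Characteristic → 𝐍(X) ≤ 𝐍((Z.comap f).map X.subtype) :=
    fun Z hZ => @normalizer_le_normalizer_map_subtype _ _ X _ (Characteristic.comap_quotient_mk hZ)
  have hF := hn (frattini _) inferInstance
  have key : ∀ Y ≤ X, X ≤ twoPhiCore X ⊔ Y → (Y.subgroupOf X).map f = ⊤ := fun Y h5 h6 => by
    refine frattini_nongenerating (top_le_iff.1 ?_)
    have := map_mono (f := f) (subgroupOf_mono X h6)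
    rwa [subgroupOf_self, twoPhiCore, subOf_sup (map_subtype_le _) h5, subgroupOf_map_subtype_self,
      Subgroup.map_sup, map_comap_eq_self_of_surjective hf, sup_comm, map_top_of_surjective _ hf] at this
  have hd' : ∀ Y ≤ X, X ≤ 𝐍(Y) → T ≤ 𝐍(Y) → X ≤ Y ∨ Y ≤ twoPhiCore X := fun Y h5 h6 h7 => by
    refine (h4 _ le_sup_left (sup_le (map_subtype_le _) h5) (norm_sup (h2.trans hF) h7)).symm.imp
      (fun e => h1.ge.trans (res_le_of_le_sup (core_pgroup 2 X) ((core_le 2 X).trans h6) ?_))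
      fun e => le_sup_right.trans e.le
    have := congrArg (fun Z => (Z.comap f).map X.subtype) (key Y h5 e.ge)
    simp only [comap_map_eq, comap_top, Subgroup.map_sup, map_subgroupOf_eq_of_le h5, f,
      QuotientGroup.ker_mk', ← MonoidHom.range_eq_map, range_subtype] at this
    exact this.ge.trans (sup_comm _ _).le
  have hΦ := card_frattini_le hd hc
  refine ⟨p, twoPhiCore X, hp, hp2, h1, h2, h2.trans hF, map_subtype_le _, ?_, hd', fun x hx e => ?_,
    fun x hx => ?_, fun e => ?_⟩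
  · rw [← map_subtype_commutator]
    exact map_mono (map_le_iff_le_comap.1 ((map_commutator _ _ _).le.trans
      ((der_mono le_top).trans (PGroup.commutator_le_frattini hP))))
  · have := key _ (zpowers_le.2 hx) e
    rw [show (zpowers x).subgroupOf X = zpowers ⟨x, hx⟩ from by
      rw [← subgroupOf_map_subtype_self (zpowers (⟨x, hx⟩ : X)), MonoidHom.map_zpowers]; rfl,
      MonoidHom.map_zpowers] at this
    exact hc (isCyclic_iff_exists_zpowers_eq_top.2 ⟨_, this⟩)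
  · have h5 : f ⟨x, hx⟩ ^ p = 1 := by
      rcases h3 with h3 | -
      · exact h3.2.2 _
      have h6 := hn (omegaOne p ⊤) inferInstance
      rcases hd' _ (map_subtype_le _) ((le_norm X).trans h6) (h2.trans h6) with e | e
      · refine PGroup.pow_eq_one_of_mem_omegaOne_of_class_two (hp.odd_of_ne_two hp2) (H := ⊤)
          (comm_eq_bot_iff.2 ((PGroup.commutator_le_frattini hP).trans (le_cent_of_card_le
            (hP.to_subgroup _) (Nml.top_iff.2 inferInstance) hΦ))) ?_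
        exact (le_map_subtype_iff le_rfl).1 e (x := ⟨x, hx⟩) hx
      · rw [twoPhiCore, map_subtype_le_map_subtype, comap_le_comap_of_surjective hf] at e
        haveI := PGroup.isCyclic_of_card_omegaOne_le hp2 (hP.to_subgroup ⊤) ((card_le_of_le e).trans hΦ)
        exact (hc (isCyclic_of_surjective _ topEquiv.surjective)).elim
    rw [← map_pow] at h5
    exact isPGroup_subgroup_iff.1 (core_pgroup 2 X) _
      (mem_map_of_mem X.subtype ((QuotientGroup.eq_one_iff _).1 h5))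
  · rw [twoPhiCore, card_map_of_injective X.subtype_injective, card_comap_mk'] at e
    obtain ⟨k, hk⟩ := (pCore_isPGroup 2 X).exists_card_eq
    have := Nat.le_of_dvd Nat.card_pos ((Nat.coprime_pow_primes 2 k hp Nat.prime_two hp2).dvd_of_dvd_mul_right
      (hk ▸ e))
    nlinarith [hp.two_le]

theorem quo_zpowers (h : x ∈ 𝐍(N)) : quo (zpowers x) N = zpowers (qhom N ⟨x, h⟩) := by
  rw [← MonoidHom.map_zpowers, ← subgroupOf_map_subtype_self (zpowers (⟨x, h⟩ : 𝐍(N))),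
    MonoidHom.map_zpowers]; rfl

theorem quo_res [Fact p.Prime] (h : X ≤ 𝐍(N)) : quo (pResidualOf p X) N = pResidualOf p (quo X N) := by
  rw [quo_def, quo_def, ← map_res, res_subgroupOf h]

/-- a subgroup with cyclic image -/
theorem exists_le_of_map {Γ : Type*} [Group Γ] (f : H →* Γ) (h : P ≤ H) (hc : IsCyclic ((P.subgroupOf H).map f)) :
    ∃ x ∈ P, P ≤ f.ker.map H.subtype ⊔ zpowers x := by
  obtain ⟨_, ⟨x, hx, rfl⟩, e⟩ := cyclic_iff.1 hc
  refine ⟨x, hx, fun y hy => ?_⟩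
  obtain ⟨k, hk⟩ := mem_zpowers_iff.1 (e.ge (mem_map_of_mem f (x := ⟨y, h hy⟩) hy))
  have : (⟨y, h hy⟩ * (x ^ k)⁻¹ : H) ∈ f.ker := by simp [MonoidHom.mem_ker, hk]
  simpa using mul_mem (mem_sup_left (mem_map_of_mem H.subtype this))
    (mem_sup_right (zpow_mem (mem_zpowers (x : G)) k))

theorem exists_le_of_quo (h : P ≤ 𝐍(N)) (hc : IsCyclic (quo P N)) : ∃ x ∈ P, P ≤ N ⊔ zpowers x := by
  have := exists_le_of_map (qhom N) h hc
  rwa [qhom_ker, subOf_map (le_norm N)] at this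

namespace XI

variable (h : XI p T X F)
include h

theorem nml (h1 : F ≤ Y) (h2 : Y ≤ X) : X ≤ 𝐍(Y) := (Nml.of_der_le (h.der.trans h1) h2).norm

theorem le_of_elts (h1 : ∀ x ∈ X, x ^ p = 1 → x ∈ K) : X ≤ K :=
  h.res.ge.trans (res_le_iff.2 fun g hg hc => h1 g hg (by
    obtain ⟨k, hk⟩ := h.expo g hg
    exact orderOf_eq_one_iff.1 (((hc.coprime_dvd_left (orderOf_pow_dvd p)).pow_right k).eq_one_of_dvd
      (orderOf_dvd_of_pow_eq_one hk))))

theorem quo (hN : IsPGroup 2 N) (h1 : X ≤ 𝐍(N)) (h2' : T ≤ 𝐍(N)) :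
    XI p (quo T N) (quo X N) (quo F N) where
  odd := h.odd
  res := by rw [← quo_res h1, h.res]
  norm := quo_norm h.norm N
  nF := quo_norm h.nF N
  le := quo_mono h.le N
  der := (quo_comm h1 h1).ge.trans (quo_mono h.der N)
  dich Y h2 h3 h4 := (h.dich (X ⊓ copre N Y) inf_le_left (norm_inf (le_norm X) (norm_copre h1 h3))
    (norm_inf h.norm (norm_copre h2' h4))).imp (fun e => (le_copre_iff h1).1 (e.trans inf_le_right))
      fun e => (le_inf h2 (quo_copre Y).ge).trans ((quo_inf_of_le_right (le_copre Y)).ge.trans (quo_mono e N))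
  ncyc := by
    rintro _ ⟨⟨x, h2⟩, hx, rfl⟩ e
    have h3 : F ⊔ zpowers x ≤ X := sup_le h.le (zpowers_le.2 hx)
    rw [← quo_zpowers, ← quo_sup (h.le.trans h1) (zpowers_le.2 h2), quo_le_quo_iff h1 (h3.trans h1)] at e
    exact h.ncyc x hx (h.res.ge.trans (res_le_of_le_sup (hN.to_inf_left (K := X))
      (inf_le_right.trans (h.nml le_sup_left h3)) ((le_inf e le_rfl).trans (modular_right h3 (h3.trans h1)).le)))
  expo := by
    rintro _ ⟨x, hx, rfl⟩
    obtain ⟨k, hk⟩ := h.expo x hx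
    exact ⟨k, by rw [← map_pow, ← map_pow, show (x ^ p) ^ 2 ^ k = 1 from Subtype.ext hk, map_one]⟩
  small e := h.small (e.trans (card_quo_dvd F N))

theorem le_comm (hU : U ≤ T) (hn : T ≤ 𝐍(U)) (ht : t ∈ T) (h2 : t * t ∈ U) (h3 : T ≤ U ⊔ zpowers t) :
    X ≤ ⁅X, U⁆ := by
  refine (h.dich _ (comm_le_left (hU.trans h.norm)) (left_norm_comm _ _) (norm_comm h.norm hn)).resolve_right
    fun e => h.ncyc 1 (one_mem _) (le_sup_of_le_left fun x hx => ?_)
  have key : ∀ y ∈ X, t * y * t⁻¹ ∈ F ⊔ zpowers y → y ∈ F := fun y hy e1 => by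
    have h4 : F ⊔ zpowers y ≤ X := sup_le h.le (zpowers_le.2 hy)
    refine (h.dich _ h4 (h.nml le_sup_left h4) (h3.trans (sup_le (norm_of_comm_le_of_le (e.trans le_sup_left) h4)
      (zpowers_le.2 (Transfer.mem_normalizer_of_conj_le ?_))))).resolve_left (h.ncyc y hy)
      (mem_sup_right (mem_zpowers y))
    rw [Transfer.conj_sup, conj_eq_of_norm (h.nF ht), Transfer.conj_zpowers]
    exact sup_le le_sup_left (zpowers_le.2 e1)
  have hb := conj_mem_of_norm (h.norm ht) hx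
  have hc : t * t * x * (t * t)⁻¹ * x⁻¹ ∈ F := e (commutator_comm U X ▸ comm_mem_comm h2 hx)
  have h5 := key _ (mul_mem hx hb) (by
    convert mul_mem (mem_sup_left (mul_mem (conj_mem_of_norm (h.nml le_rfl h.le hb) hc)
      (h.der (comm_mem_comm hb hx)))) (mem_sup_right (mem_zpowers (x * (t * x * t⁻¹)))) using 1
    group)
  refine key x hx ?_
  simpa using mul_mem (mem_sup_right (inv_mem (mem_zpowers x))) (mem_sup_left h5)

theorem le_der (h1 : X ≤ H) (h2 : T ≤ H) : X ≤ ⁅H, H⁆ :=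
  (h.le_comm le_rfl (le_norm T) (one_mem _) (by simp) le_sup_left).trans (comm_le_der h1 h2)

variable [hp : Fact p.Prime]

theorem le_sup_syl (hP : Syl p P X) : X ≤ F ⊔ P := h.le_of_elts fun x hx e => by
  obtain ⟨g, hg, h1⟩ := hP.exists_le_conj (elab_pgroup (PGroup.elemAb_zpowers e)) (zpowers_le.2 hx)
  exact conj_le_of_norm le_sup_right (h.nml le_sup_left (sup_le h.le hP.le) hg) (h1 (mem_zpowers x))

theorem le_of_cyc (h1 : X ≤ 𝐍(K)) (h2 : T ≤ 𝐍(K))
    (h3 : ∀ P ≤ X, IsPGroup p P → ∃ x ∈ P, P ≤ K ⊔ zpowers x) : X ≤ K := by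
  obtain ⟨P, hP⟩ := Syl.exists p X
  obtain ⟨x, hx, h4⟩ := h3 P hP.le hP.pgroup
  have h5 := zpowers_le.2 (hP.le hx)
  exact ((h.dich (K ⊓ X) inf_le_right (norm_inf h1 (le_norm X)) (norm_inf h2 h.norm)).resolve_right fun e =>
    h.ncyc x (hP.le hx) ((h.le_sup_syl hP).trans (sup_le le_sup_left ((le_inf h4 hP.le).trans
      ((modular_right h5 (h5.trans h1)).le.trans (sup_le_sup_right e _)))))).trans inf_le_left

end XI

end Cfsg.Lib.QT
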