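import Cfsg.Agent.Lib.QT.Xi
import Cfsg.Agent.Lib.KS.Shape

/-! # The action of a member of `Ξ(G, T)` on the components of an overgroup -/

set_option autoImplicit false
set_option linter.unusedSectionVars false

namespace Cfsg.Lib.QT

open Subgroup Cfsg.Lib.BG Cfsg.Lib.Core Cfsg.Lib.Loc Cfsg.Lib.KS
open Cfsg.Lib.Comp hiding core_top comm_sup_le' ncl conj_le_ncl le_ncl ncl_le ncl_mono norm_ncl ncl_nml
open scoped Cfsg.Lib.Transfer commutatorElement

variable {G : Type*} [Group G] [Finite G] {A F H K M N P T U X : Subgroup G} {p : ℕ} {t x : G}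

theorem shape_cyc {O : Type*} [Group O] {n : ℕ} (h : Shape n O) (hp : p.Prime) (hp2 : p ≠ 2) {Q : Subgroup O}
    (hQ : IsPGroup p Q) (h1 : Q ≤ _root_.commutator O) : IsCyclic Q := by
  rcases h.2 p hp hp2 with h2 | ⟨-, B, _, f, -, h2⟩
  · exact h2 Q hQ
  haveI : IsCyclic (Q.subgroupOf f.ker) := h2 _ (hQ.comap_subtype (K := f.ker))
  exact isCyclic_of_surjective _ (subgroupOfEquivOfLe (h1.trans (Abelianization.commutator_subset_ker f))).surjective

theorem exists_le_out (hK : ⁅K, K⁆ = K) (hS : Shp (K ⧸ center K)) (hp : p.Prime) (hp2 : p ≠ 2)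
    (hP : IsPGroup p P) (h : P ≤ ⁅𝐍(K), 𝐍(K)⁆) : ∃ x ∈ P, P ≤ (K ⊔ 𝐂(K)) ⊔ zpowers x := by
  set f := actCenterQuot (K := K) (H := 𝐍(K)) le_rfl
  obtain ⟨x, hx, h1⟩ := exists_le_of_map ((QuotientGroup.mk' (Inn (K ⧸ center K))).comp f) (h.trans (der_le _))
    (shape_cyc hS hp hp2 (hP.comap_subtype.map _) ((map_mono ((subgroupOf_mono _ h).trans
      (subOf_comm le_rfl le_rfl).le)).trans ((map_commutator _ _ _).le.trans (der_mono le_top))))
  refine ⟨x, hx, h1.trans (sup_le_sup_right ?_ _)⟩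
  rintro _ ⟨k, hk, rfl⟩
  obtain ⟨y, hy⟩ : f k ∈ Inn (K ⧸ center K) := (QuotientGroup.eq_one_iff _).1 hk
  obtain ⟨l, rfl⟩ := QuotientGroup.mk_surjective y
  have h3 : f ⟨l, le_normalizer l.2⟩ = MulAut.conj (l : K ⧸ center K) := by
    ext y
    obtain ⟨y, rfl⟩ := QuotientGroup.mk_surjective y
    rfl
  have h4 : (⟨l, le_normalizer l.2⟩ : 𝐍(K))⁻¹ * k ∈ f.ker := by
    rw [MonoidHom.mem_ker, map_mul, map_inv, h3, hy, inv_mul_cancel]
  rw [ker_actCenterQuot _ hK] at h4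
  simpa using mul_mem (mem_sup_left l.2) (mem_sup_right (S := K) (mem_subgroupOf.1 h4))

theorem der_sup_le (h : A ≤ 𝐍(K)) : ⁅K ⊔ A, K ⊔ A⁆ ≤ K ⊔ ⁅A, A⁆ := by
  have h1 := sup_le_norm_left h
  rw [← quo_le_quo_iff ((der_le _).trans h1) ((der_le _).trans h), quo_comm h1 h1, quo_comm h h, quo_sup_self h]

variable [hp : Fact p.Prime]

theorem le_of_le_sup_p' (hP : IsPGroup p P) (hK : ¬ p ∣ Nat.card K) (hn : K ≤ 𝐍(N)) (h : P ≤ N ⊔ K) : P ≤ N :=
  have h1 := h.trans (sup_le_norm_left hn)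
  (quo_eq_bot_iff h1).1 (PiGrp.eq_bot (PiGrp.p_iff.2 (pgroup_quo hP N))
    (((PiGrp.p'_iff.2 hK).quo N).of_le ((quo_le_quo_iff h1 hn).2 h)))

theorem exists_le_of_rk (hp2 : p ≠ 2) (hP : IsPGroup p P) (hM : rk p M ≤ 1) (hn : M ≤ 𝐍(N)) (h : P ≤ N ⊔ M) :
    ∃ x ∈ P, P ≤ N ⊔ zpowers x := by
  have h1 := h.trans (sup_le_norm_left hn)
  obtain ⟨S, hS⟩ := Syl.exists p M
  obtain ⟨g, -, h2⟩ := Syl.exists_le_conj (hS.quo hn) (pgroup_quo hP N) ((quo_le_quo_iff h1 hn).2 h)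
  exact exists_le_of_quo h1 (cyclic_of_le ((cyclic_conj g).2 (cyclic_quo
    (cyclic_of_rk_le_one hp2 hS.pgroup (hS.rk_eq.trans_le hM)) N)) h2)

/-- coprime automorphisms from the derived group act trivially when the odd Sylow subgroups are cyclic -/
theorem cent_of_rk (hK : Cmp K H) (hr : ∀ r : ℕ, r.Prime → r ≠ 2 → rk r K ≤ 1) (hA : A ≤ 𝐍(K))
    (hP : IsPGroup p P) (h1 : P ≤ ⁅A, A⁆) (h2 : ¬ p ∣ Nat.card K) : K ≤ 𝐂(P) := by
  have h3 := h1.trans (der_le A)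
  have h4 := fun r [Fact r.Prime] => Syl.exists_inv r (h3.trans hA)
    ((PiGrp.p'_iff.2 h2).coprime_pgroup hP).symm (.inl (pgroup_sol hP))
  obtain ⟨S, hS, h5⟩ := h4 2
  refine (hK.comm_eq_or (h3.trans hA)).resolve_left fun e => hK.not_sol (pgroup_sol hS.pgroup)
    (e.ge.trans ((Coprime.commutator_le_of_subset_mul_centralizer fun k hk => ?_).trans (comm_le_left h5)))
  suffices h : PiNat {2} (𝐂(P).relIndex K) by
    obtain ⟨x, hx, y, hy, rfl⟩ := Coprime.exists_mul_of_coprime_relIndex hS.le (h.coprime hS.idx).symm hk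
    exact ⟨x, hx, by simpa using hy⟩
  refine fun r hr' hd => by_contra fun e => ?_
  haveI := Fact.mk hr'
  obtain ⟨R, hR, h6⟩ := h4 r
  have h7 : K ⊔ (K ⊔ A) ⊓ 𝐍(R) = K ⊔ A := hR.frattini ⟨le_sup_left, sup_le_norm_left hA⟩
  have h8 : (K ⊔ A) ⊓ 𝐍(R) ≤ 𝐍(K) := inf_le_left.trans (sup_le_norm_left hA)
  have h9 := h1.trans ((der_mono (le_sup_right.trans h7.ge)).trans (der_sup_le h8))
  have := (le_inf h9 h6).trans (modular_right ((der_le _).trans inf_le_right) ((der_le _).trans h8)).le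
  refine hR.not_dvd' (hd.trans (relIndex_dvd_left (cent_symm (le_of_le_sup_p' (K := K ⊓ 𝐍(R)) hP
    (fun e1 => h2 (e1.trans (card_dvd inf_le_left))) (norm_cent inf_le_right) (this.trans ?_))) K))
  exact sup_le le_sup_right ((der1_cent_cyclic (cyclic_of_rk_le_one e hR.pgroup
    (hR.rk_eq.trans_le (hr r hr' e))) inf_le_right).trans le_sup_left)

namespace XI

variable (h : XI p T X F)
include h

theorem cmp_of_norm (hs : SQ H) (hX : X ≤ H) (hK : Cmp K H) (hS : Shp (K ⧸ center K)) (hT : T ≤ 𝐍(K)) :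
    X ≤ 𝐂(K) ∨ X ≤ K := by
  have h1 : X ≤ 𝐍(K) := h.res.ge.trans ((res_mono hX).trans ((Cmp.cc hK).res_norm hs))
  have h2 : X ≤ K ⊔ 𝐂(K) := h.le_of_cyc (norm_sup h1 (norm_cent h1)) (norm_sup hT (norm_cent hT))
    fun P h2 h3 => exists_le_out hK.perf hS hp.out h.odd h3 (h2.trans (h.le_der h1 hT))
  by_cases e : p ∣ Nat.card K
  · have h3 := rk_cent_lt h.odd hK.perf e hK.le (inf_le_right : 𝐂(K) ⊓ H ≤ H) inf_le_left
    have h4 := hs p hp.out h.odd
    exact .inr (h.le_of_cyc h1 hT fun P h5 h6 => exists_le_of_rk (M := 𝐂(K) ⊓ H) h.odd h6 (by omega)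
      (inf_le_left.trans (cent_le_norm K)) (h5.trans ((le_inf h2 hX).trans (modular_left hK.le (cent_le_norm K)).le)))
  · exact .inl (h.le_of_elts fun x hx h3 => zpowers_le.1 (le_of_le_sup_p' (elab_pgroup (PGroup.elemAb_zpowers h3)) e
      (norm_cent (le_norm K)) ((zpowers_le.2 hx).trans (h2.trans (sup_comm _ _).le))))

theorem cmp_of_not_norm (hs : SQ H) (hX : X ≤ H) (hT : T ≤ H) (hK : Cmp K H) (hn : ¬ T ≤ 𝐍(K)) :
    X ≤ 𝐂(K) ∨ X ≤ K ⊔ T := by
  obtain ⟨t, ht, h1⟩ := SetLike.not_le_iff_exists.1 hn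
  have hc := Cmp.cc hK
  have hJ := hK.conj_mem (hT ht)
  have h2 := hK.cent_of_ne hJ fun e => h1 (norm_of_conj_eq e.symm)
  have hr : ∀ r : ℕ, r.Prime → r ≠ 2 → rk r K ≤ 1 := fun r hr h3 => by
    haveI := Fact.mk hr
    by_cases e : r ∣ Nat.card K
    · have h4 := rk_cent_lt h3 hJ.perf (by rwa [Transfer.card_conj]) hJ.le hK.le h2
      have h5 := hs r hr h3
      omega
    · rw [rk_eq_zero_iff.2 e]; exact zero_le_one
  have h3 : ∀ {L}, Cmp L H → X ≤ 𝐍(L) := fun hL => h.res.ge.trans ((res_mono hX).trans ((Cmp.cc hL).res_norm hs))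
  by_cases e : p ∣ Nat.card K
  · refine .inr (h.le_of_elts fun x hx h4 => ?_)
    have h5 := elab_pgroup (PGroup.elemAb_zpowers h4)
    have key : ∀ {L}, Cmp L H → p ∣ Nat.card L → ∃ E, Elem p 1 E (L ⊓ 𝐂(zpowers x)) := fun hL e => by
      obtain ⟨Y, h6, h7, h8⟩ := dvd_card_cent h5 ((zpowers_le.2 hx).trans (h3 hL)) e
      obtain ⟨E, hE⟩ := Elem.exists_one_of_pgroup h7 h8
      exact ⟨E, hE.mono h6⟩
    obtain ⟨E, hE⟩ := key hK e
    obtain ⟨D, hD⟩ := key hJ (by rwa [Transfer.card_conj])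
    have h6 := hE.le.trans inf_le_left
    have h7 := hD.le.trans inf_le_left
    have h8 := (hE.of_le (h6.trans hK.le)).sup_one (hD.of_le (h7.trans hJ.le)) (cent_mono h2 h6 h7) fun e1 => by
      have h8 := rk_cent_lt h.odd hK.perf e le_rfl (e1.trans h6) (h7.trans (cent_symm h2))
      have h9 := hr p hp.out h.odd
      have := hD.rk_eq
      omega
    exact sup_le (h6.trans le_sup_left) (h7.trans (conj_le_of_mem le_sup_left (mem_sup_right ht)))
      ((h8.maxElem_of_rk (hs p hp.out h.odd)).mem (hX hx) (zpowers_le.1 (cent_symm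
        (sup_le (hE.le.trans inf_le_right) (hD.le.trans inf_le_right)))) h4)
  have h4 : X ≤ ⁅X, T ⊓ 𝐍(K)⁆ := h.le_comm inf_le_left (le_norm_iff.2 fun a ha u hu =>
    mem_inf.2 ⟨T.mul_mem (T.mul_mem ha hu.1) (T.inv_mem ha), by
      rcases hc.tri hs (hT (T.inv_mem (T.mul_mem ha hu.1))) (hT (T.inv_mem ha)) with e | e | e
      · exact mul_mem (inv_mem_iff.1 e) (by simpa using mul_mem (mem_inf.1 hu).2 e)
      · exact mul_mem (mul_mem (inv_mem_iff.1 e) (mem_inf.1 hu).2) e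
      · rwa [inv_inv] at e⟩) ht ⟨mul_mem ht ht, by
      rcases hc.tri hs (hT (inv_mem ht)) (hT ht) with e | e | e
      exacts [(h1 (inv_mem_iff.1 e)).elim, (h1 e).elim, by rwa [inv_inv] at e]⟩ fun a ha => by
    rcases hc.tri hs (hT ht) (hT ha) with e | e | e
    · exact (h1 e).elim
    · exact mem_sup_left ⟨ha, e⟩
    · simpa using mul_mem (mem_sup_right (mem_zpowers t))
        (mem_sup_left (mem_inf.2 ⟨T.mul_mem (T.inv_mem ht) ha, e⟩))
  exact .inl (h.le_of_elts fun x hx h5 => zpowers_le.1 (cent_symm (cent_of_rk hK hr le_rfl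
    (elab_pgroup (PGroup.elemAb_zpowers h5)) ((zpowers_le.2 hx).trans (h4.trans
      (commutator_mono (h3 hK) inf_le_right))) e)))

end XI

end Cfsg.Lib.QT
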