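import Cfsg.Agent.Lib.QT.XiCmp

/-! # Solvable uniqueness groups -/

set_option autoImplicit false
set_option linter.unusedSectionVars false

namespace Cfsg.Lib.QT

open Subgroup Cfsg.Lib.BG Cfsg.Lib.Core Cfsg.Lib.Loc Cfsg.Lib.KS
open Cfsg.Lib.Comp hiding core_top comm_sup_le' ncl conj_le_ncl le_ncl ncl_le ncl_mono norm_ncl ncl_nml
open scoped Cfsg.Lib.Transfer commutatorElement

variable {G : Type*} [Group G] [Finite G] {F H K R T X : Subgroup G} {p : ℕ} [hp : Fact p.Prime]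

namespace XI

variable (h : XI p T X F)
include h

theorem le_pcore (hs : SQ H) (h0 : pCoreOf 2 H = ⊥) (hX : X ≤ H) (hT : T ≤ H) (hE : X ≤ 𝐂(𝐄(H))) :
    X ≤ 𝐎({p}, H) := by
  have key : ∀ r : ℕ, [Fact r.Prime] → r ≠ 2 → ∃ K, Nml K H ∧ pResidualOf r K ≤ 𝐂(𝐎({r}, H)) ∧ X ≤ K :=
    fun r hr h2 => by
      obtain ⟨K, h3, h4, h5⟩ := exists_ker h2 (pcore_pgroup r H) ((rk_mono (pcore_le _ _) r).trans (hs r hr.out h2))
        (pcore_nml _ H).norm
      exact ⟨K, h3, h4, h.le_of_cyc (hX.trans h3.norm) (hT.trans h3.norm) fun P h6 h7 =>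
        h5 p hp.out h.odd P (h6.trans (h.le_der hX hT)) h7⟩
  have hF := (Fitting_nml H).pcore {p}ᶜ
  have h1 : X ≤ 𝐂(𝐎({p}ᶜ, 𝐅(H))) := cent_symm (nil_le_of_pcore_le (nil_of_le (Fitting_nil H) (pcore_le _ _))
    fun r hr h1 => by
      haveI := Fact.mk hr
      refine (hF.pcore_le _).trans ?_
      rcases eq_or_ne r 2 with rfl | e
      · rw [← core_eq_pcore, h0]; exact bot_le
      obtain ⟨K, -, h2, h3⟩ := key r e
      refine cent_symm (h.le_of_elts fun x hx h4 => h2 (mem_res (h3 hx) ?_))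
      exact ((Nat.coprime_primes hp.out hr).2 (Ne.symm ((pcore_pi _ _).mem hr h1))).coprime_dvd_left
        (orderOf_dvd_of_pow_eq_one h4))
  obtain ⟨K, h2, h3, h4⟩ := key p h.odd
  have h5 : Nml (K ⊓ 𝐂(𝐄(H)) ⊓ 𝐂(𝐎({p}ᶜ, 𝐅(H)))) H := (h2.inf_cent (layer_nml H).norm).inf_cent hF.norm
  set C := K ⊓ 𝐂(𝐄(H)) ⊓ 𝐂(𝐎({p}ᶜ, 𝐅(H)))
  have h6 : pResidualOf p C ≤ 𝐅(H) := le_Fitting_of_cent ((res_le p C).trans h5.le)
    ((res_le p C).trans (inf_le_left.trans inf_le_right)) (by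
      rw [← (nil_pcore_dprod (Fitting_nil H) {p}).sup, pcore_Fitting]
      exact le_cent_sup ((res_mono (inf_le_left.trans inf_le_left)).trans h3) ((res_le p C).trans inf_le_right))
  have h7 : pResidualOf p C ≤ 𝐂(C) := res_le_iff.2 fun g hg hc => cent_symm (inf_le_right : C ≤ _)
    (zpowers_le.1 (nil_le_pcore (Fitting_nil H) (zpowers_le.2 (h6 (mem_res hg hc)))
      (PiGrp.p'_iff_coprime.2 (by rwa [Nat.card_zpowers]))))
  obtain ⟨P, hP⟩ := Syl.exists p C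
  have h8 : C ≤ 𝐍(P) := (res_sup_sylowIn hP.le hP.not_dvd').ge.trans
    (sup_le (norm_of_cent (h7.trans (cent_anti hP.le))) (le_norm P))
  exact h.le_of_elts fun x hx h9 => h5.pcore_le _ ((hP.pcore_eq' h8).ge (zpowers_le.1 (hP.ge_of_norm_p'
    (zpowers_le.2 (le_inf (le_inf h4 hE) h1 hx)) (elab_pgroup (PGroup.elemAb_zpowers h9))
      ((zpowers_le.2 (le_inf (le_inf h4 hE) h1 hx)).trans h8))))

theorem norm_le (hR : IsPGroup p R) (hr : rk p R ≤ 2) (hX : X ≤ R) (hT : T ≤ 𝐍(R)) : 𝐍(R) ≤ 𝐍(X) := by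
  have hP := pgroup_of_le hR hX
  have he : ∀ x ∈ X, x ^ p = 1 := fun x hx => by
    obtain ⟨k, hk⟩ := h.expo x hx
    obtain ⟨j, hj⟩ := isPGroup_subgroup_iff.1 hP _ (pow_mem hx p)
    exact orderOf_eq_one_iff.1 (Nat.eq_one_of_dvd_coprimes (Nat.coprime_pow_primes k j Nat.prime_two hp.out
      h.odd.symm) (orderOf_dvd_of_pow_eq_one hk) (orderOf_dvd_of_pow_eq_one hj))
  have hc : ¬ IsCyclic X := fun e => by
    obtain ⟨x, hx, e⟩ := cyclic_iff.1 e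
    exact h.ncyc x hx (e.ge.trans le_sup_right)
  have hn : ∀ Y ≤ X, 𝐍(R) ≤ 𝐍(Y) → 𝐍(R) ≤ 𝐍(X) ∨ Y ≤ F := fun Y h1 h2 =>
    (h.dich Y h1 ((le_norm_of_le hX).trans h2) (hT.trans h2)).imp_left fun e => le_antisymm h1 e ▸ h2
  obtain ⟨E, hE, -⟩ := exists_nml_elem_two h.odd hP (Nml.refl X) hc
  have h1 : omegaOne p 𝐙(R) ≤ X := ((hE.mono hX).maxElem_of_rk hr).Ohm1_center_le.trans hE.le
  have h2 : 𝐍(R) ≤ 𝐍(omegaOne p 𝐙(R)) := norm_Ohm1 (norm_center le_rfl) p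
  set Z := omegaOne p 𝐙(R)
  refine (hn Z h1 h2).elim id fun h3 => ?_
  have hF : Nat.card F ∣ p := by
    obtain ⟨k, hk⟩ := (pgroup_of_le hP h.le).exists_card_eq
    have : ¬ 2 ≤ k := fun e => h.small (hk ▸ pow_dvd_pow p e)
    exact hk ▸ (pow_dvd_pow p (by omega)).trans (pow_one p).dvd
  have hR0 : R ≠ ⊥ := ne_bot_mono (hE.ne_bot two_ne_zero) (hE.le.trans hX)
  have hZ0 : Z ≠ ⊥ := Ohm1_center_ne_bot hR hR0
  have hZ : Elem p 1 Z R := .of_card (h1.trans hX) (Nat.dvd_antisymm ((card_dvd h3).trans hF)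
    (pgroup_dvd_card (pgroup_of_le hP h1) hZ0))
  have e : Z = F := eq_of_le_of_card_le h3 (hZ.card_one ▸ Nat.le_of_dvd hp.out.pos hF)
  have hZc : Z ≤ 𝐂(R) := (Ohm1_le _ _).trans inf_le_right
  have h4 : omegaOne p (R ⊓ relCent R Z) ≤ X := PGroup.omegaOne_le_iff.2 fun w hw h4 => by
    obtain ⟨x, hx, h5, h6⟩ : ∃ x ∈ X, x ∉ Z ∧ w ∈ 𝐂[x] := by
      by_contra! h5
      obtain ⟨y, hy, h6⟩ := SetLike.not_le_iff_exists.1 fun e => h.ncyc 1 (one_mem _) (le_sup_of_le_left e)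
      have h7 : ∀ x ∈ X, x * w * x⁻¹ * w⁻¹ ∈ Z := fun x hx => by
        simpa [commutatorElement_def, mul_assoc] using inv_mem ((mem_relCent.1 (mem_inf.1 hw).2).2 x (hX hx))
      have h8 := zpowers_eq_of_prime hZ.prime (h7 y hy) fun e1 => h5 y hy (e ▸ h6)
        (mem_cent1.2 (eq_mul_of_mul_inv_eq (eq_of_mul_inv_eq_one e1)).symm)
      have h9 : ∀ k : ℕ, y ^ k * w * (y ^ k)⁻¹ = (y * w * y⁻¹ * w⁻¹) ^ k * w := fun k => by
        induction k with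
        | zero => simp
        | succ k ih =>
          have := mem_cent.1 (hZc (pow_mem (h7 y hy) k)) y (hX hy)
          calc _ = y * (y ^ k * w * (y ^ k)⁻¹) * y⁻¹ := by group
            _ = _ := by rw [ih, ← mul_assoc, this, pow_succ]; group
      refine h.ncyc y hy fun x hx => ?_
      obtain ⟨k, hk⟩ := mem_powers_iff_mem_zpowers.2 (h8.ge (h7 x hx))
      have h10 : (y ^ k)⁻¹ * x ∈ F := e ▸ by_contra fun e1 => h5 _ (mul_mem (inv_mem (pow_mem hy k)) hx) e1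
        (mem_cent1.2 (by
          have := h9 k
          rw [show (y * w * y⁻¹ * w⁻¹) ^ k = _ from hk] at this
          calc _ = (y ^ k)⁻¹ * (y ^ k * w * (y ^ k)⁻¹) * x := by group
            _ = _ := by rw [this]; group))
      simpa using mul_mem (mem_sup_right (pow_mem (mem_zpowers y) k)) (mem_sup_left h10)
    exact sup_le h1 (zpowers_le.2 hx) (((hZ.sup_zpowers (hX hx) (cent_symm hZc (hX hx)) (he x hx) h5).maxElem_of_rk
      hr).mem (mem_inf.1 hw).1 (by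
        rw [cent_sup, cent_zpowers]; exact ⟨cent_symm hZc (mem_inf.1 hw).1, h6⟩) h4)
  refine (hn _ h4 (norm_Ohm1 (norm_inf le_rfl (le_normalizer_relCent le_rfl h2)) p)).elim id fun h5 => ?_
  obtain ⟨D, hD, h6⟩ := exists_nml_elem_two h.odd hR (Nml.refl R) fun e => hc (cyclic_of_le e hX)
  have h7 : R ≤ 𝐍(Z) := (le_norm R).trans h2
  have h8 := card_quo_mul (⟨(hD.maxElem_of_rk hr).Ohm1_center_le, hD.le.trans h7⟩ : Nml Z D)
  rw [hZ.card_one, hD.card, pow_two, Nat.mul_right_inj hp.out.ne_zero] at h8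
  have h9 := (quo_le_cent_iff (hD.le.trans h7) h7).1
    (le_cent_of_card_le (pgroup_quo hR Z) (Nml.quo ⟨hD.le, h6⟩ Z) h8.le)
  exact absurd (hD.rank_le hZ (((hD.of_le (le_inf hD.le (le_relCent.2 ⟨hD.le.trans h7, h9⟩))).le_Ohm1.trans
    h5).trans e.ge)) (by decide)

theorem norm_or (hs : SQ H) (h0 : pCoreOf 2 H = ⊥) (hX : X ≤ H) (hT : T ≤ H) (hk : CK (fun S _ => Shp S) H) :
    H ≤ 𝐍(X) ∨ ∃ K, Cmp K H ∧ X ≤ K ⊔ T := by
  refine or_iff_not_imp_right.2 fun e => (pcore_nml {p} H).norm.trans (h.norm_le (pcore_pgroup p H)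
    ((rk_mono (pcore_le _ _) p).trans (hs p hp.out h.odd)) (h.le_pcore hs h0 hX hT
      (cent_symm (layer_le_cent fun K hK => cent_symm ?_))) (norm_pcore (le_norm_of_le hT) _))
  by_cases h1 : T ≤ 𝐍(K)
  · exact (h.cmp_of_norm hs hX hK (ck_cmp hk hK) h1).resolve_right fun h2 => e ⟨K, hK, h2.trans le_sup_left⟩
  · exact (h.cmp_of_not_norm hs hX hT hK h1).resolve_right fun h2 => e ⟨K, hK, h2⟩

theorem norm_or' (hs : SQ H) (hX : X ≤ H) (hT : Syl 2 T H) (hk : CK (fun S _ => Shp S) H) :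
    H ≤ 𝐍(X) ∨ ∃ L, CC L H ∧ IsQuasisimple (L ⧸ pCore 2 L) ∧ X ≤ L ⊔ T := by
  have hN := core_nml 2 H
  have h1 : pCoreOf 2 H ≤ T := hT.ge_of_norm_p hN.le (core_pgroup 2 H) (hT.le.trans hN.norm)
  refine ((h.quo (core_pgroup 2 H) (hX.trans hN.norm) (hT.le.trans hN.norm)).norm_or
    (hs.quo hN.norm (core_pgroup 2 H)) (core_quo_core 2 H) (quo_mono hX _) (quo_mono hT.le _)
      (ck_quo hk hN.norm)).imp (fun e => ?_) fun ⟨K, hK, e⟩ => ?_
  · have := (norm_of_quo_norm hN.norm (hX.trans hN.norm) e).trans (normalizer_le_normalizer_res 2 _)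
    rwa [res_sup_of_isPGroup (core_pgroup 2 H) (h1.trans h.norm), h.res] at this
  · obtain ⟨L, hL, rfl⟩ := exists_cc_quo hN (pgroup_sol (core_pgroup 2 H)) (Cmp.cc hK)
    have h2 := hL.le.trans hN.norm
    rw [← quo_sup h2 (hT.le.trans hN.norm), quo_le_quo_iff (hX.trans hN.norm)
      (sup_le h2 (hT.le.trans hN.norm))] at e
    have h3 : (pCoreOf 2 H).subgroupOf L = pCore 2 L := by
      rw [← core_subgroupOf_self, hL.core_eq, inf_subgroupOf_right]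
    haveI : ((pCoreOf 2 H).subgroupOf L).Normal := h3 ▸ inferInstance
    obtain ⟨f⟩ := nonempty_quotient_equiv_quo h2
    exact ⟨L, hL, isQuasisimple_of_mulEquiv hK.qs (f.symm.trans (QuotientGroup.quotientMulEquivOfEq h3)),
      e.trans (sup_le (h1.trans le_sup_right) le_rfl)⟩

end XI

omit hp in
theorem uniq_sol (hQ : IsQTKE G) (hT : Syl 2 T ⊤) (hX : X ∈ XiStar T)
    (hk : ∀ H : Subgroup G, pCoreOf 2 H ≠ ⊥ → CK (fun S _ => Shp S) H) :
    maxTwoLocalsContaining (X ⊔ T) = {𝐍(X)} := by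
  obtain ⟨p, F, hp, h⟩ := xi_of_mem hX.1
  haveI := Fact.mk hp
  have h1 := calH_iff.1 hX.1.2.2.1
  have h2 := sup_le_norm_left h.norm
  refine uniq_max (fun H h3 h4 => (h.norm_or' (sq hQ h3) (le_sup_left.trans h4)
    (hT.of_le (le_sup_right.trans h4) le_top) (hk H h3)).resolve_right fun ⟨L, h5, h6, h7⟩ =>
      hX.2 L (h5.calL hT (le_sup_right.trans h4) h3) h6 (sup_le h7 le_sup_right)) h2
    (((chp hQ hT h1 le_sup_right).of_le_normalizer le_sup_left h2).core_ne_bot fun e =>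
      h.ncyc 1 (one_mem _) (e ▸ bot_le))

end Cfsg.Lib.QT
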